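import Cfsg.Agent.LSSp.Rep
import Cfsg.Agent.ClassSp.Simple
import Cfsg.Agent.Mdx.Dual

/-!
# Symplectic groups: Siegel elements, point stabilisers, transitivity
-/

set_option autoImplicit false
set_option linter.unusedSectionVars false

namespace Cfsg.Agent.MinS

open Matrix Cfsg.Agent.ClassSp Cfsg.Agent.LSSp

/-- Vectors. -/
abbrev Vc (l F : Type*) := l ⊕ l → F

/-- The symplectic group. -/
abbrev Sp (l : Type*) [Fintype l] [DecidableEq l] (F : Type*) [Field F] : Type _ :=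
  ↥(symplecticGroup l F)

section Group

variable {G : Type*} [Group G] [Finite G]

theorem rel_ne_zero (N K : Subgroup G) : N.relIndex K ≠ 0 := Subgroup.index_ne_zero_of_finite

theorem rel_inf_right (N K : Subgroup G) : (N ⊓ K).relIndex K = N.relIndex K :=
  Subgroup.inf_relIndex_right N K

/-- Two chains between `K ⊓ A` and `F`. -/
theorem two_chains {F K A : Subgroup G} (h : K ≤ F) :
    K.relIndex F * A.relIndex K = A.relIndex F * K.relIndex (F ⊓ A) := by
  have h1 := Subgroup.relIndex_mul_relIndex (A ⊓ K) K F inf_le_right h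
  have h2 := Subgroup.relIndex_mul_relIndex (K ⊓ A) (F ⊓ A) F (inf_le_inf_right A h) inf_le_left
  have e : K ⊓ A = K ⊓ (F ⊓ A) := by rw [← inf_assoc, inf_eq_left.2 h]
  rw [rel_inf_right] at h1
  have h3 : (K ⊓ A).relIndex (F ⊓ A) = K.relIndex (F ⊓ A) := by
    rw [e, rel_inf_right]
  have h4 : (F ⊓ A).relIndex F = A.relIndex F := by
    rw [inf_comm, rel_inf_right]
  rw [h3, h4] at h2
  rw [mul_comm, h1, inf_comm, ← h2, mul_comm]

theorem two_chains' {P H : Subgroup G} (M : Subgroup G) (h : H ≤ P) :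
    M.relIndex P * H.relIndex (M ⊓ P) = H.relIndex P * M.relIndex H := by
  have h1 := Subgroup.relIndex_mul_relIndex (M ⊓ H) (M ⊓ P) P (inf_le_inf_left M h) inf_le_right
  have h2 := Subgroup.relIndex_mul_relIndex (M ⊓ H) H P inf_le_right h
  have e : M ⊓ H = H ⊓ (M ⊓ P) := by
    rw [inf_comm H, inf_assoc, inf_eq_right.2 h]
  have h3 : (M ⊓ H).relIndex (M ⊓ P) = H.relIndex (M ⊓ P) := by
    rw [e, rel_inf_right]
  rw [h3, rel_inf_right] at h1
  rw [rel_inf_right] at h2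
  rw [mul_comm, h1, ← h2, mul_comm]

theorem card_rel (N K : Subgroup G) : Nat.card K = N.relIndex K * Nat.card ↥(N ⊓ K) := by
  have h := Subgroup.relIndex_mul_relIndex ⊥ (N ⊓ K) K bot_le inf_le_right
  rw [Subgroup.relIndex_bot_left, Subgroup.relIndex_bot_left, Subgroup.inf_relIndex_right] at h
  rw [← h, mul_comm]

theorem rel_le_index (M P : Subgroup G) : M.relIndex P ≤ M.index := by
  rw [← Subgroup.relIndex_top_right M]
  exact Subgroup.relIndex_le_of_le_right le_top (rel_ne_zero _ _)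

/-- Two different orbits on cosets. -/
theorem two_orbits (P M : Subgroup G) (k : G) (h : ∀ p ∈ P, ∀ m ∈ M, k⁻¹ ≠ p * m) :
    M.relIndex P + (M.comap (MulAut.conj k).toMonoidHom).relIndex P ≤ M.index := by
  classical
  set M' := M.comap (MulAut.conj k).toMonoidHom with hM'
  have hmem : ∀ x, x ∈ M' ↔ k * x * k⁻¹ ∈ M := fun x => Iff.rfl
  let f : (P ⧸ M.subgroupOf P) ⊕ (P ⧸ M'.subgroupOf P) → G ⧸ M := fun o =>
    match o with
    | Sum.inl a => QuotientGroup.mk (a.out : G)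
    | Sum.inr a => QuotientGroup.mk ((a.out : G) * k⁻¹)
  have key : ∀ (a : P ⧸ M.subgroupOf P) (b : P ⧸ M'.subgroupOf P), f (Sum.inl a) ≠ f (Sum.inr b) := by
    intro a b hab
    have h1 := QuotientGroup.eq.1 hab
    refine h ((b.out : G)⁻¹ * (a.out : G)) (P.mul_mem (P.inv_mem b.out.2) a.out.2) _ h1 ?_
    group
  have hf : Function.Injective f := by
    intro o o' hoo
    rcases o with a | a <;> rcases o' with b | b
    · have h1 := QuotientGroup.eq.1 hoo
      have h2 : (QuotientGroup.mk a.out : P ⧸ M.subgroupOf P) = QuotientGroup.mk b.out := by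
        rw [QuotientGroup.eq, Subgroup.mem_subgroupOf]
        exact h1
      have e1 : (QuotientGroup.mk a.out : P ⧸ M.subgroupOf P) = a := Quotient.out_eq' a
      have e2 : (QuotientGroup.mk b.out : P ⧸ M.subgroupOf P) = b := Quotient.out_eq' b
      rw [e1, e2] at h2
      rw [h2]
    · exact absurd hoo (key a b)
    · exact absurd hoo.symm (key b a)
    · have h1 := QuotientGroup.eq.1 hoo
      have h2 : (QuotientGroup.mk a.out : P ⧸ M'.subgroupOf P) = QuotientGroup.mk b.out := by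
        rw [QuotientGroup.eq, Subgroup.mem_subgroupOf, hmem]
        have e : k * ((a.out⁻¹ * b.out : P) : G) * k⁻¹ =
            ((a.out : G) * k⁻¹)⁻¹ * ((b.out : G) * k⁻¹) := by
          rw [Subgroup.coe_mul, Subgroup.coe_inv]; group
        rw [e]
        exact h1
      have e1 : (QuotientGroup.mk a.out : P ⧸ M'.subgroupOf P) = a := Quotient.out_eq' a
      have e2 : (QuotientGroup.mk b.out : P ⧸ M'.subgroupOf P) = b := Quotient.out_eq' b
      rw [e1, e2] at h2
      rw [h2]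
  have h1 := Nat.card_le_card_of_injective f hf
  rw [Nat.card_sum] at h1
  exact h1

end Group

variable {l : Type*} [Fintype l] [DecidableEq l] {F : Type*} [Field F] [Fintype F]

theorem sf_comm0 {x y : Vc l F} : sf x y = 0 ↔ sf y x = 0 := by
  rw [sf_swap]; exact neg_eq_zero

theorem sf_ne_comm {x y : Vc l F} : sf x y ≠ 0 ↔ sf y x ≠ 0 := not_congr sf_comm0

theorem ac_inj {g : Sp l F} {x y : Vc l F} : ac g x = ac g y ↔ x = y := by
  constructor
  · intro h
    rw [← ac_inv_ac g x, h, ac_inv_ac]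
  · rintro rfl; rfl

theorem ac_sub (g : Sp l F) (x y : Vc l F) : ac g (x - y) = ac g x - ac g y := by
  rw [sub_eq_add_neg, ac_add, ← neg_one_smul F y, ac_smul]
  module

theorem ac_neg (g : Sp l F) (x : Vc l F) : ac g (-x) = -ac g x := by
  rw [← neg_one_smul F x, ac_smul]
  module

theorem sf_ac_left (g : Sp l F) (x y : Vc l F) : sf (ac g⁻¹ x) y = sf x (ac g y) := by
  rw [← sf_ac g, ac_ac_inv]

/-- Siegel elements. -/
noncomputable def qe (u w : Vc l F) (s : F) : Sp l F := ee u w * tv u s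

theorem ac_qe {u w : Vc l F} (h : sf u w = 0) (s : F) (x : Vc l F) :
    ac (qe u w s) x = x + (sf x u) • w + (sf x w + s * sf x u) • u := by
  rw [qe, ac_mul, ac_tv, ac_ee h]
  simp only [sf_add_left, sf_smul_left, sf_self, h]
  module

theorem ac_qe_perp {u w : Vc l F} (h : sf u w = 0) (s : F) {x : Vc l F} (hx : sf x u = 0) :
    ac (qe u w s) x = x + (sf x w) • u := by
  rw [ac_qe h, hx]; module

theorem ac_qe_self {u w : Vc l F} (h : sf u w = 0) (s : F) : ac (qe u w s) u = u := by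
  rw [ac_qe_perp h s (sf_self u), h]; module

theorem qe_mul {u w w' : Vc l F} (h : sf u w = 0) (h' : sf u w' = 0) (s s' : F) :
    qe u w s * qe u w' s' = qe u (w + w') (s + s' + sf w' w) := by
  have h1 : sf w' u = 0 := sf_comm0.1 h'
  apply ac_ext; intro x
  rw [ac_mul, ac_qe h', ac_qe h, ac_qe (by rw [sf_add_right, h, h', add_zero])]
  simp only [sf_add_left, sf_add_right, sf_smul_left, sf_self, h, h1]
  module

theorem qe_zero (u : Vc l F) (s : F) : qe u 0 s = tv u s := by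
  rw [qe, ee_zero, one_mul]

theorem qe_inv {u w : Vc l F} (h : sf u w = 0) (s : F) : (qe u w s)⁻¹ = qe u (-w) (-s) := by
  rw [inv_eq_iff_mul_eq_one, qe_mul h (by rw [sf_neg_right, h, neg_zero]), sf_neg_left, sf_self]
  rw [show w + -w = 0 by module, show s + -s + -0 = (0 : F) by ring, qe_zero, tv_zero]

theorem qe_add_smul {u w : Vc l F} (h : sf u w = 0) (c s : F) :
    qe u (w + c • u) s = qe u w (s + 2 * c) := by
  apply ac_ext; intro x
  rw [ac_qe (by rw [sf_add_right, sf_smul_right, sf_self, h]; ring), ac_qe h, sf_add_right,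
    sf_smul_right]
  module

theorem qe_smul_self (u : Vc l F) (c s : F) : qe u (c • u) s = tv u (s + 2 * c) := by
  rw [← qe_zero, ← qe_add_smul (sf_zero_right u), zero_add]

theorem qe_smul_left {u w : Vc l F} (h : sf u w = 0) (c s : F) :
    qe (c • u) w s = qe u (c • w) (c ^ 2 * s) := by
  apply ac_ext; intro x
  rw [ac_qe (by rw [sf_smul_left, h, mul_zero]), ac_qe (by rw [sf_smul_right, h, mul_zero])]
  simp only [sf_smul_right]
  module

theorem conj_qe {u w : Vc l F} (h : sf u w = 0) (g : Sp l F) (s : F) :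
    g * qe u w s * g⁻¹ = qe (ac g u) (ac g w) s := by
  apply ac_ext; intro x
  have h' : sf (ac g u) (ac g w) = 0 := by rw [sf_ac, h]
  rw [ac_mul, ac_mul, ac_qe h, ac_qe h', ac_add, ac_add, ac_ac_inv, ac_smul, ac_smul, sf_ac_left,
    sf_ac_left]

theorem conj_tv (g : Sp l F) (w : Vc l F) (c : F) : g * tv w c * g⁻¹ = tv (ac g w) c :=
  tv_conj g w c

theorem tv_mul (w : Vc l F) (c d : F) : tv w c * tv w d = (tv w (c + d) : Sp l F) :=
  (tv_add w c d).symm

theorem tv_mul_qe {u w : Vc l F} (h : sf u w = 0) (c s : F) :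
    tv u c * qe u w s = qe u w (c + s) := by
  rw [← qe_zero, qe_mul (sf_zero_right u) h, sf_zero_right, zero_add, add_zero]

theorem qe_mul_tv {u w : Vc l F} (h : sf u w = 0) (c s : F) :
    qe u w s * tv u c = qe u w (s + c) := by
  rw [← qe_zero, qe_mul h (sf_zero_right u), sf_zero_left, add_zero, add_zero]

/-! ### Subgroups -/

/-- Stabiliser of a vector. -/
def fixs (u : Vc l F) : Subgroup (Sp l F) where
  carrier := {g | ac g u = u}
  mul_mem' := by
    intro g h hg hh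
    change ac (g * h) u = u
    rw [ac_mul, (hh : ac h u = u), (hg : ac g u = u)]
  one_mem' := ac_one u
  inv_mem' := fun hg => ac_inv_fix hg

theorem mem_fixs {u : Vc l F} {g : Sp l F} : g ∈ fixs u ↔ ac g u = u := Iff.rfl

/-- Stabiliser of a point. -/
def PP (u : Vc l F) : Subgroup (Sp l F) where
  carrier := {g | ∃ c : F, c ≠ 0 ∧ ac g u = c • u}
  mul_mem' := by
    rintro g g' ⟨c, hc, h⟩ ⟨c', hc', h'⟩
    exact ⟨c * c', mul_ne_zero hc hc', by rw [ac_mul, h', ac_smul, h, smul_smul, mul_comm]⟩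
  one_mem' := ⟨1, one_ne_zero, by rw [ac_one, one_smul]⟩
  inv_mem' := by
    rintro g ⟨c, hc, h⟩
    refine ⟨c⁻¹, inv_ne_zero hc, ?_⟩
    have : u = c⁻¹ • ac g u := by rw [h, smul_smul, inv_mul_cancel₀ hc, one_smul]
    conv_lhs => rw [this]
    rw [ac_smul, ac_inv_ac]

theorem mem_PP {u : Vc l F} {g : Sp l F} : g ∈ PP u ↔ ∃ c : F, c ≠ 0 ∧ ac g u = c • u := Iff.rfl

theorem fixs_le_PP (u : Vc l F) : fixs u ≤ PP u := fun g hg =>
  ⟨1, one_ne_zero, by rw [one_smul]; exact hg⟩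

/-- The unipotent radical of the stabiliser of a point. -/
def QQ (u : Vc l F) : Subgroup (Sp l F) where
  carrier := {g | ∃ w s, sf u w = 0 ∧ g = qe u w s}
  mul_mem' := by
    rintro _ _ ⟨w, s, h, rfl⟩ ⟨w', s', h', rfl⟩
    exact ⟨_, _, by rw [sf_add_right, h, h', add_zero], qe_mul h h' s s'⟩
  one_mem' := ⟨0, 0, sf_zero_right u, by rw [qe_zero, tv_zero]⟩
  inv_mem' := by
    rintro _ ⟨w, s, h, rfl⟩
    exact ⟨-w, -s, by rw [sf_neg_right, h, neg_zero], qe_inv h s⟩

theorem mem_QQ {u : Vc l F} {g : Sp l F} : g ∈ QQ u ↔ ∃ w s, sf u w = 0 ∧ g = qe u w s := Iff.rfl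

theorem qe_mem_QQ {u w : Vc l F} (h : sf u w = 0) (s : F) : qe u w s ∈ QQ u := ⟨w, s, h, rfl⟩

theorem tv_mem_QQ (u : Vc l F) (s : F) : tv u s ∈ QQ u := ⟨0, s, sf_zero_right u, (qe_zero u s).symm⟩

theorem QQ_le_fixs (u : Vc l F) : QQ u ≤ fixs u := by
  rintro _ ⟨w, s, h, rfl⟩
  exact ac_qe_self h s

theorem QQ_perp {u : Vc l F} {g : Sp l F} (hg : g ∈ QQ u) {x : Vc l F} (hx : sf x u = 0) :
    ∃ c : F, ac g x = x + c • u := by
  obtain ⟨w, s, h, rfl⟩ := hg
  exact ⟨_, ac_qe_perp h s hx⟩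

theorem exists_dual {u : Vc l F} (hu : u ≠ 0) : ∃ v, sf u v = 1 := by
  obtain ⟨w, hw⟩ := exists_sf_ne_zero hu
  have hw' : sf u w ≠ 0 := sf_ne_comm.1 hw
  exact ⟨(sf u w)⁻¹ • w, by rw [sf_smul_right, inv_mul_cancel₀ hw']⟩

theorem mem_QQ_of {u : Vc l F} (hu : u ≠ 0) {g : Sp l F} (hgu : ac g u = u)
    (hg : ∀ x, sf x u = 0 → ∃ c : F, ac g x = x + c • u) : g ∈ QQ u := by
  obtain ⟨v, hv⟩ := exists_dual hu
  have hvu : sf v u = -1 := by rw [sf_swap, hv]
  obtain ⟨w, hw⟩ : ∃ w, w = v - ac g v := ⟨_, rfl⟩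
  have huw : sf u w = 0 := by
    have h1 : sf u (ac g v) = 1 := by
      conv_lhs => rw [← hgu]
      rw [sf_ac, hv]
    rw [hw, sf_sub_right, hv, h1, sub_self]
  have hgv : ac g v = v - w := by rw [hw]; module
  have hperp : ∀ x, sf x u = 0 → ac g x = x + sf x w • u := by
    intro x hx
    obtain ⟨c, hc⟩ := hg x hx
    have h1 := sf_ac g x v
    rw [hc, hgv, sf_add_left, sf_sub_right, sf_smul_left, sf_sub_right, hv, huw] at h1
    have : c = sf x w := by linear_combination h1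
    rw [hc, this]
  refine ⟨w, sf v w, huw, ac_ext fun x => ?_⟩
  rw [ac_qe huw]
  have h1 : sf (x + (sf x u) • v) u = 0 := by
    rw [sf_add_left, sf_smul_left, hvu]; ring
  have h2 := hperp _ h1
  rw [ac_add, ac_smul, hgv, sf_add_left, sf_smul_left] at h2
  have h3 : ac g x = x + (sf x u) • v + (sf x w + sf x u * sf v w) • u - sf x u • (v - w) := by
    rw [← h2]; module
  rw [h3]; module

theorem QQ_conj {u : Vc l F} {g e : Sp l F} (he : e ∈ QQ u) : g * e * g⁻¹ ∈ QQ (ac g u) := by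
  obtain ⟨w, s, h, rfl⟩ := he
  exact ⟨_, _, by rw [sf_ac, h], conj_qe h g s⟩

theorem QQ_conj_fix {u : Vc l F} {g e : Sp l F} (hg : ac g u = u) (he : e ∈ QQ u) :
    g * e * g⁻¹ ∈ QQ u := by
  have := QQ_conj (g := g) he
  rwa [hg] at this

/-- The group generated modulo `Q`. -/
def KK (u : Vc l F) (M : Subgroup (Sp l F)) : Subgroup (Sp l F) where
  carrier := {g | ac g u = u ∧ ∃ y ∈ QQ u, g * y ∈ M}
  mul_mem' := by
    rintro g g' ⟨h1, y, hy, h2⟩ ⟨h1', y', hy', h2'⟩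
    refine ⟨by rw [ac_mul, h1', h1], (g'⁻¹ * y * g') * y', ?_, ?_⟩
    · apply (QQ u).mul_mem _ hy'
      have := QQ_conj_fix (g := g'⁻¹) (ac_inv_fix h1') hy
      rwa [inv_inv] at this
    · have : g * g' * (g'⁻¹ * y * g' * y') = (g * y) * (g' * y') := by group
      rw [this]
      exact M.mul_mem h2 h2'
  one_mem' := ⟨ac_one u, 1, (QQ u).one_mem, by rw [mul_one]; exact M.one_mem⟩
  inv_mem' := by
    rintro g ⟨h1, y, hy, h2⟩
    refine ⟨ac_inv_fix h1, g * y⁻¹ * g⁻¹, QQ_conj_fix h1 ((QQ u).inv_mem hy), ?_⟩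
    have : g⁻¹ * (g * y⁻¹ * g⁻¹) = (g * y)⁻¹ := by group
    rw [this]
    exact M.inv_mem h2

theorem mem_KK {u : Vc l F} {M : Subgroup (Sp l F)} {g : Sp l F} :
    g ∈ KK u M ↔ ac g u = u ∧ ∃ y ∈ QQ u, g * y ∈ M := Iff.rfl

theorem KK_le_fixs (u : Vc l F) (M : Subgroup (Sp l F)) : KK u M ≤ fixs u := fun _ hg => hg.1

theorem QQ_le_KK (u : Vc l F) (M : Subgroup (Sp l F)) : QQ u ≤ KK u M := fun g hg =>
  ⟨QQ_le_fixs u hg, g⁻¹, (QQ u).inv_mem hg, by rw [mul_inv_cancel]; exact M.one_mem⟩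

theorem mem_KK_of_mem {u : Vc l F} {M : Subgroup (Sp l F)} {g : Sp l F} (hg : g ∈ M)
    (hu : ac g u = u) : g ∈ KK u M := ⟨hu, 1, (QQ u).one_mem, by rwa [mul_one]⟩

instance finite_Sp : Finite (Sp l F) :=
  inferInstanceAs (Finite ↥(symplecticGroup l F))

/-- Index inequality, first part. -/
theorem index_ge_fix (u : Vc l F) (M : Subgroup (Sp l F)) :
    M.relIndex (QQ u) * (KK u M).relIndex (fixs u) ≤ M.relIndex (fixs u) := by
  have h1 : M ⊓ fixs u ≤ KK u M := fun g hg => mem_KK_of_mem hg.1 hg.2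
  have h4 := Subgroup.relIndex_mul_relIndex _ _ _ h1 (KK_le_fixs u M)
  rw [Subgroup.inf_relIndex_right] at h4
  rw [← h4]
  apply Nat.mul_le_mul_right
  calc M.relIndex (QQ u) ≤ (M ⊓ fixs u).relIndex (QQ u) :=
        Subgroup.relIndex_le_of_le_left inf_le_left (rel_ne_zero _ _)
    _ ≤ (M ⊓ fixs u).relIndex (KK u M) :=
        Subgroup.relIndex_le_of_le_right (QQ_le_KK u M) (rel_ne_zero _ _)

/-- The action on vectors. -/
@[reducible] noncomputable def actM (l : Type*) [Fintype l] [DecidableEq l] (F : Type*) [Field F]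
    [Fintype F] : MulAction (Sp l F) (Vc l F) where
  smul := ac
  one_smul := ac_one
  mul_smul := ac_mul

theorem relIndex_fixs (H : Subgroup (Sp l F)) (a : Vc l F) :
    (fixs a).relIndex H = Nat.card {v : Vc l F // ∃ g ∈ H, ac g a = v} := by
  letI := actM l F
  have h1 : (fixs a).subgroupOf H = MulAction.stabilizer H a := rfl
  rw [Subgroup.relIndex, h1, MulAction.index_stabilizer, ← Nat.card_coe_set_eq]
  refine Nat.card_congr (Equiv.subtypeEquivRight fun v => ?_)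
  constructor
  · rintro ⟨g, rfl⟩
    exact ⟨g.1, g.2, rfl⟩
  · rintro ⟨g, hg, rfl⟩
    exact ⟨⟨g, hg⟩, rfl⟩

/-! ### Transitivity -/

theorem exists_move {x x' : Vc l F} (h : sf x x' ≠ 0) :
    ∃ s : F, ac (tv (x' - x) s : Sp l F) x = x' := by
  refine ⟨(sf x x')⁻¹, ?_⟩
  rw [ac_tv, sf_sub_right, sf_self, sub_zero, inv_mul_cancel₀ h]
  module

theorem ac_tv_fix {w x : Vc l F} (h : sf x w = 0) (s : F) : ac (tv w s : Sp l F) x = x := by
  rw [ac_tv, h]; module

theorem exists_both {W : Submodule F (Vc l F)} {x x' : Vc l F} (hx : ∃ z ∈ W, sf x z ≠ 0)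
    (hx' : ∃ z ∈ W, sf x' z ≠ 0) : ∃ z ∈ W, sf x z ≠ 0 ∧ sf x' z ≠ 0 := by
  obtain ⟨a, ha, h1⟩ := hx
  obtain ⟨b, hb, h2⟩ := hx'
  by_cases h3 : sf x' a = 0
  · by_cases h4 : sf x b = 0
    · exact ⟨a + b, W.add_mem ha hb, by rw [sf_add_right, h4, add_zero]; exact h1,
        by rw [sf_add_right, h3, zero_add]; exact h2⟩
    · exact ⟨b, hb, h4, h2⟩
  · exact ⟨a, ha, h1, h3⟩

/-- Transitivity modulo radicals inside a subspace. -/
theorem exists_move2 {W : Submodule F (Vc l F)} {x x' : Vc l F} (hxW : x ∈ W) (hxW' : x' ∈ W)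
    (hx : ∃ z ∈ W, sf x z ≠ 0) (hx' : ∃ z ∈ W, sf x' z ≠ 0) :
    ∃ g : Sp l F, ac g x = x' ∧ ∀ y, (∀ w ∈ W, sf y w = 0) → ac g y = y := by
  obtain ⟨z, hz, h1, h2⟩ := exists_both hx hx'
  obtain ⟨s, hs⟩ := exists_move h1
  obtain ⟨s', hs'⟩ := exists_move (sf_ne_comm.1 h2)
  refine ⟨tv (x' - z) s' * tv (z - x) s, by rw [ac_mul, hs, hs'], fun y hy => ?_⟩
  rw [ac_mul, ac_tv_fix (hy _ (W.sub_mem hz hxW)), ac_tv_fix (hy _ (W.sub_mem hxW' hz))]

/-- Transitivity on nonzero vectors. -/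
theorem exists_ac {u v : Vc l F} (hu : u ≠ 0) (hv : v ≠ 0) : ∃ g : Sp l F, ac g u = v := by
  obtain ⟨g, -, hg⟩ := exists_mem_tvGroup hu hv
  exact ⟨g, hg⟩

/-- Orthogonal space of a vector. -/
def pu (u : Vc l F) : Submodule F (Vc l F) where
  carrier := {x | sf x u = 0}
  add_mem' := by
    intro a b ha hb
    change sf (a + b) u = 0
    rw [sf_add_left, (ha : sf a u = 0), (hb : sf b u = 0), add_zero]
  zero_mem' := sf_zero_left u
  smul_mem' := by
    intro c x hx
    change sf (c • x) u = 0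
    rw [sf_smul_left, (hx : sf x u = 0), mul_zero]

theorem mem_pu {u x : Vc l F} : x ∈ pu u ↔ sf x u = 0 := Iff.rfl

theorem exists_perp {u x : Vc l F} (hu : u ≠ 0) (h : ∀ c : F, x ≠ c • u) :
    ∃ z, sf z u = 0 ∧ sf x z ≠ 0 := by
  obtain ⟨z, hz, hz'⟩ := exists_perp_not_perp hu (by rintro ⟨a, ha⟩; exact h a ha)
  exact ⟨z, sf_comm0.1 hz, hz'⟩

theorem exists_perp2 {u a x : Vc l F} (hu : u ≠ 0) (ha : ∀ c : F, a ≠ c • u)
    (h : ∀ c d : F, x ≠ c • u + d • a) : ∃ z, sf z u = 0 ∧ sf z a = 0 ∧ sf x z ≠ 0 := by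
  by_contra hcon
  push Not at hcon
  have ha0 : a ≠ 0 := fun h0 => ha 0 (by rw [h0, zero_smul])
  obtain ⟨z1, h1, h1'⟩ := exists_perp hu ha
  obtain ⟨z2, h2, h2'⟩ := exists_perp ha0 (x := u) (by
    intro c hc
    have hc0 : c ≠ 0 := by rintro rfl; exact hu (by rw [hc, zero_smul])
    exact ha c⁻¹ (by rw [hc, smul_smul, inv_mul_cancel₀ hc0, one_smul]))
  have h1'' : sf u z1 = 0 := sf_comm0.1 h1
  have h2'' : sf a z2 = 0 := sf_comm0.1 h2
  apply h (sf x z2 / sf u z2) (sf x z1 / sf a z1)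
  rw [← sub_eq_zero]
  apply eq_zero_of_sf
  intro y
  rw [sf_swap, neg_eq_zero]
  set x' := x - ((sf x z2 / sf u z2) • u + (sf x z1 / sf a z1) • a) with hx'
  have e1 : sf x' z1 = 0 := by
    rw [hx', sf_sub_left, sf_add_left, sf_smul_left, sf_smul_left, h1'', div_mul_cancel₀ _ h1']
    ring
  have e2 : sf x' z2 = 0 := by
    rw [hx', sf_sub_left, sf_add_left, sf_smul_left, sf_smul_left, h2'', div_mul_cancel₀ _ h2']
    ring
  have e3 := hcon (y - (sf u y / sf u z2) • z2 - (sf a y / sf a z1) • z1) (by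
    rw [sf_swap, neg_eq_zero, sf_sub_right, sf_sub_right, sf_smul_right, sf_smul_right, h1'',
      div_mul_cancel₀ _ h2']; ring) (by
    rw [sf_swap, neg_eq_zero, sf_sub_right, sf_sub_right, sf_smul_right, sf_smul_right, h2'',
      div_mul_cancel₀ _ h1']; ring)
  have e4 : sf x' (y - (sf u y / sf u z2) • z2 - (sf a y / sf a z1) • z1) = 0 := by
    have hu' : sf u (y - (sf u y / sf u z2) • z2 - (sf a y / sf a z1) • z1) = 0 := by
      rw [sf_sub_right, sf_sub_right, sf_smul_right, sf_smul_right, h1'', div_mul_cancel₀ _ h2']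
      ring
    have ha' : sf a (y - (sf u y / sf u z2) • z2 - (sf a y / sf a z1) • z1) = 0 := by
      rw [sf_sub_right, sf_sub_right, sf_smul_right, sf_smul_right, h2'', div_mul_cancel₀ _ h1']
      ring
    rw [hx', sf_sub_left, sf_add_left, sf_smul_left, sf_smul_left, hu', ha', e3]
    ring
  rw [sf_sub_right, sf_sub_right, sf_smul_right, sf_smul_right, e1, e2] at e4
  linear_combination e4

end Cfsg.Agent.MinS
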