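import Cfsg.Agent.MinS.Types

/-!
# Trichotomy for points
-/

set_option autoImplicit false
set_option linter.unusedSectionVars false

namespace Cfsg.Agent.MinS

open Matrix Cfsg.Agent.ClassSp Cfsg.Agent.LSSp Cfsg.Agent.Mdx

variable {l : Type*} [Fintype l] [DecidableEq l] {F : Type*} [Field F] [Fintype F]
variable {ψ : AddChar F ℂ} {u : Vc l F} {M : Subgroup (Sp l F)}

variable (ψ u M) in
/-- Outcome of step A. -/
def SA : Prop := ∀ a ∈ Dh ψ u M, (∀ c : F, a ≠ c • u) → ∀ g : Sp l F, ac g u = u → ac g a = a →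
  g ∈ KK u M

variable (ψ u M) in
/-- First type. -/
def TI : Prop := ∀ y, sf y u = 0 → y ∈ Dh ψ u M

variable (ψ u M) in
/-- Second type. -/
def TII : Prop := ∀ y ∈ Dh ψ u M, ∃ c : F, y = c • u

variable (ψ u M) in
/-- Third type. -/
def TIII (a : Vc l F) : Prop := a ∈ Dh ψ u M ∧ (∀ c : F, a ≠ c • u) ∧
  ∀ x ∈ Dh ψ u M, ∃ c d : F, x = c • u + d • a

theorem ne_smul_of_sf {x a : Vc l F} (hx : sf x u = 0) (h : sf x a ≠ 0) (c : F) : a ≠ c • u := by
  rintro rfl
  exact h (by rw [sf_smul_right, hx, mul_zero])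

theorem TI_of_pair (hψ : ψ ≠ 1) (hA : SA ψ u M) {a x : Vc l F} (ha : a ∈ Dh ψ u M)
    (hx : x ∈ Dh ψ u M) (h : sf x a ≠ 0) : TI ψ u M := by
  have hau := Dh_perp hψ ha
  have hxu := Dh_perp hψ hx
  have hua := sf_comm0.1 hau
  have hux := sf_comm0.1 hxu
  have hac := ne_smul_of_sf hxu h
  have hxc := ne_smul_of_sf hau (sf_ne_comm.1 h)
  have hca : ∀ c : F, c • a ∈ Dh ψ u M := by
    intro c
    have h1 := Dh_KK hψ (hA a ha hac (tv a (c / sf x a)) (ac_tv_fix hua _)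
      (ac_tv_fix (sf_self a) _)) hx
    rw [ac_tv, div_mul_cancel₀ _ h] at h1
    have h2 := (Dh ψ u M).sub_mem h1 hx
    rwa [add_sub_cancel_left] at h2
  have hcx : ∀ c : F, c • x ∈ Dh ψ u M := by
    intro c
    have h1 := Dh_KK hψ (hA x hx hxc (tv x (c / sf a x)) (ac_tv_fix hux _)
      (ac_tv_fix (sf_self x) _)) ha
    rw [ac_tv, div_mul_cancel₀ _ (sf_ne_comm.1 h)] at h1
    have h2 := (Dh ψ u M).sub_mem h1 ha
    rwa [add_sub_cancel_left] at h2
  have hw : ∀ w, sf w u = 0 → sf w a = 0 → w ∈ Dh ψ u M := by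
    intro w hwu hwa
    have haw : sf a ((sf x a)⁻¹ • w) = 0 := by rw [sf_smul_right, sf_comm0.1 hwa, mul_zero]
    have h1 := Dh_KK hψ (hA a ha hac (qe a ((sf x a)⁻¹ • w) 0) (by
      rw [ac_qe haw, hua, sf_smul_right, sf_comm0.1 hwu]; module) (ac_qe_self haw 0)) hx
    rw [ac_qe haw, smul_smul, mul_inv_cancel₀ h, one_smul] at h1
    have h2 := (Dh ψ u M).sub_mem ((Dh ψ u M).sub_mem h1 hx)
      (hca (sf x ((sf x a)⁻¹ • w) + 0 * sf x a))
    have e : x + w + (sf x ((sf x a)⁻¹ • w) + 0 * sf x a) • a - x -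
      (sf x ((sf x a)⁻¹ • w) + 0 * sf x a) • a = w := by module
    rwa [e] at h2
  intro y hy
  have h1 := hw (y - (sf y a / sf x a) • x) (by rw [sf_sub_left, sf_smul_left, hy, hxu]; ring) (by
    rw [sf_sub_left, sf_smul_left, div_mul_cancel₀ _ h, sub_self])
  have h2 := (Dh ψ u M).add_mem h1 (hcx (sf y a / sf x a))
  rwa [sub_add_cancel] at h2

theorem TIII_of (hψ : ψ ≠ 1) (hA : SA ψ u M) (hu : u ≠ 0) {a : Vc l F} (ha : a ∈ Dh ψ u M)
    (hac : ∀ c : F, a ≠ c • u) (hI : ¬ TI ψ u M) : TIII ψ u M a := by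
  refine ⟨ha, hac, fun x hx => ?_⟩
  by_contra hcon
  push Not at hcon
  obtain ⟨w, hwu, hwa, hxw⟩ := exists_perp2 hu hac hcon
  have h1 := Dh_KK hψ (hA a ha hac (tv w 1) (ac_tv_fix (sf_comm0.1 hwu) _)
      (ac_tv_fix (sf_comm0.1 hwa) _)) hx
  rw [ac_tv, one_mul] at h1
  have h2 := (Dh ψ u M).sub_mem h1 hx
  rw [add_sub_cancel_left] at h2
  exact hI (TI_of_pair hψ hA h2 hx (by rw [sf_smul_right]; exact mul_ne_zero hxw hxw))

theorem trichotomy (hψ : ψ ≠ 1) (hA : SA ψ u M) (hu : u ≠ 0) :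
    TI ψ u M ∨ TII ψ u M ∨ ∃ a, TIII ψ u M a := by
  by_cases hI : TI ψ u M
  · exact Or.inl hI
  by_cases hII : TII ψ u M
  · exact Or.inr (Or.inl hII)
  · unfold TII at hII
    push Not at hII
    obtain ⟨a, ha, hac⟩ := hII
    exact Or.inr (Or.inr ⟨a, TIII_of hψ hA hu ha hac hI⟩)

theorem TI_Bh (hψ : ψ ≠ 1) (hu : u ≠ 0) (hI : TI ψ u M) {w : Vc l F} (hw : w ∈ Bh u M) :
    ∃ c : F, w = c • u := by
  by_contra hcon
  push Not at hcon
  obtain ⟨z, hz, hz'⟩ := exists_perp hu hcon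
  apply hz'
  rw [sf_comm0]
  apply psi_all hψ
  intro c
  have h1 := mem_Dh.1 (hI (c • z) (by rw [sf_smul_left, hz, mul_zero])) w hw
  rwa [sf_smul_left] at h1

theorem TII_Bh (hψ : ψ ≠ 1) (hII : TII ψ u M) {w : Vc l F} (hw : sf w u = 0) : w ∈ Bh u M := by
  apply mem_Bh_of hψ
  intro d hd
  obtain ⟨c, rfl⟩ := hII d hd
  rw [sf_smul_right, hw, mul_zero]

theorem TIII_Bh (hψ : ψ ≠ 1) {a : Vc l F} (hIII : TIII ψ u M a) {w : Vc l F} (hw : sf w u = 0)
    (hw' : sf w a = 0) : w ∈ Bh u M := by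
  apply mem_Bh_of hψ
  intro d hd
  obtain ⟨c, d', rfl⟩ := hIII.2.2 d hd
  rw [sf_add_right, sf_smul_right, sf_smul_right, hw, hw', mul_zero, mul_zero, add_zero]

/-- Commutators of Siegel elements. -/
theorem Yh_top_of_comm (h2 : (2 : F) ≠ 0) {w w' : Vc l F} (hw : w ∈ Bh u M)
    (hw' : ∀ c : F, c • w' ∈ Bh u M) (h : sf w w' ≠ 0) : Yh u M = ⊤ := by
  rw [eq_top_iff]
  intro t _
  obtain ⟨h0, s, hs⟩ := hw
  obtain ⟨h0', s', hs'⟩ := hw' (-(t / (2 * sf w w')))
  have h1 := M.mul_mem (M.mul_mem hs hs') (M.inv_mem (M.mul_mem hs' hs))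
  have e : ∀ a b : F, qe u (w + -(t / (2 * sf w w')) • w') a *
      (qe u (w + -(t / (2 * sf w w')) • w') b)⁻¹ = tv u (a - b) := by
    intro a b
    rw [mul_inv_eq_iff_eq_mul, tv_mul_qe (by rw [sf_add_right, h0, h0', add_zero]), sub_add_cancel]
  rw [qe_mul h0 h0', qe_mul h0' h0, add_comm (-(t / (2 * sf w w')) • w') w, e] at h1
  rw [mem_Yh]
  convert h1 using 2
  rw [sf_smul_left, sf_smul_right, sf_swap w' w]
  field_simp
  ring

theorem card_pair_le (u a : Vc l F) :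
    Nat.card (Submodule.span F {u, a}).toAddSubgroup ≤ Fintype.card F * Fintype.card F := by
  rw [← Nat.card_eq_fintype_card, ← Nat.card_prod]
  refine Nat.card_le_card_of_surjective (fun p : F × F => (⟨p.1 • u + p.2 • a,
    Submodule.mem_span_pair.2 ⟨p.1, p.2, rfl⟩⟩ : (Submodule.span F {u, a}).toAddSubgroup)) ?_
  rintro ⟨x, hx⟩
  obtain ⟨c, d, rfl⟩ := Submodule.mem_span_pair.1 hx
  exact ⟨(c, d), rfl⟩

theorem card_pair {a : Vc l F} (hu : u ≠ 0) (ha : ∀ c : F, a ≠ c • u) :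
    Nat.card (Submodule.span F {u, a}).toAddSubgroup = Fintype.card F * Fintype.card F := by
  rw [← Nat.card_eq_fintype_card, ← Nat.card_prod]
  symm
  apply Nat.card_congr
  refine Equiv.ofBijective (fun p : F × F => (⟨p.1 • u + p.2 • a,
    Submodule.mem_span_pair.2 ⟨p.1, p.2, rfl⟩⟩ : (Submodule.span F {u, a}).toAddSubgroup)) ⟨?_, ?_⟩
  · rintro ⟨c, d⟩ ⟨c', d'⟩ h
    have h1 : c • u + d • a = c' • u + d' • a := congrArg Subtype.val h
    have hd : d = d' := by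
      by_contra hdd
      have h2 : d - d' ≠ 0 := sub_ne_zero.2 hdd
      apply ha ((d - d')⁻¹ * (c' - c))
      have h3 : (d - d') • a = (c' - c) • u := by
        linear_combination (norm := module) h1
      rw [← smul_smul, ← h3, smul_smul, inv_mul_cancel₀ h2, one_smul]
    subst hd
    have h4 : c • u = c' • u := by linear_combination (norm := module) h1
    rw [smul_left_injective F hu h4]
  · rintro ⟨x, hx⟩
    obtain ⟨c, d, rfl⟩ := Submodule.mem_span_pair.1 hx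
    exact ⟨(c, d), rfl⟩

theorem dp_pair (hψ : ψ ≠ 1) (u a : Vc l F) :
    dp ψ (sB l F) (Submodule.span F {u, a}).toAddSubgroup = (pu u ⊓ pu a).toAddSubgroup := by
  ext y
  rw [mem_dp_submodule hψ, Submodule.mem_toAddSubgroup, Submodule.mem_inf, mem_pu, mem_pu]
  constructor
  · intro h
    exact ⟨h u (Submodule.subset_span (by simp)), h a (Submodule.subset_span (by simp))⟩
  · intro h w hw
    obtain ⟨c, d, rfl⟩ := Submodule.mem_span_pair.1 hw
    rw [sf_add_right, sf_smul_right, sf_smul_right, h.1, h.2, mul_zero, mul_zero, add_zero]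

/-- In rank at least three the orthogonal of a line is not totally isotropic. -/
theorem exists_pair_perp (hm : 3 ≤ Fintype.card l) (u a : Vc l F) :
    ∃ x z, sf x u = 0 ∧ sf x a = 0 ∧ sf z u = 0 ∧ sf z a = 0 ∧ sf x z ≠ 0 := by
  obtain ⟨ψ, hψ⟩ := exists_addChar (F := F)
  by_contra hcon
  push Not at hcon
  have h1 := card_mul_card_dp hψ nd (Submodule.span F {u, a}).toAddSubgroup
  rw [dp_pair hψ] at h1
  have h2 := card_mul_card_dp hψ nd (pu u ⊓ pu a).toAddSubgroup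
  have h3 : (pu u ⊓ pu a).toAddSubgroup ≤ dp ψ (sB l F) (pu u ⊓ pu a).toAddSubgroup := by
    intro x hx
    rw [mem_dp_submodule hψ]
    intro w hw
    exact hcon x w hx.1 hx.2 hw.1 hw.2
  have h4 := AddSubgroup.card_le_of_le h3
  have h5 := card_pair_le u a
  set W := Nat.card (pu u ⊓ pu a).toAddSubgroup with hW
  set q := Fintype.card F with hq
  have h6 : W * W ≤ Nat.card (Vc l F) := by
    rw [← h2]; exact Nat.mul_le_mul_left _ h4
  have h7 : Nat.card (Vc l F) ≤ q * q * W := by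
    rw [← h1]; exact Nat.mul_le_mul_right _ h5
  have hW0 : 0 < W := Nat.card_pos
  have h8 : W ≤ q * q := by
    by_contra hlt
    push Not at hlt
    exact absurd (h6.trans h7) (not_le.2 (Nat.mul_lt_mul_of_pos_right hlt hW0))
  have h9 : Nat.card (Vc l F) ≤ q ^ 4 := by
    refine h7.trans ((Nat.mul_le_mul_left _ h8).trans (le_of_eq (by ring)))
  rw [card_Vc] at h9
  have h10 := (Nat.pow_le_pow_iff_right (Fintype.one_lt_card (α := F))).1 h9
  omega

/-- In rank two a totally isotropic line is its own orthogonal. -/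
theorem perp_line (hm : Fintype.card l = 2) {a : Vc l F} (hu : u ≠ 0) (ha : ∀ c : F, a ≠ c • u)
    (hau : sf a u = 0) {x : Vc l F} (hx : sf x u = 0) (hx' : sf x a = 0) :
    ∃ c d : F, x = c • u + d • a := by
  obtain ⟨ψ, hψ⟩ := exists_addChar (F := F)
  have h1 := card_mul_card_dp hψ nd (Submodule.span F {u, a}).toAddSubgroup
  rw [dp_pair hψ, card_pair hu ha, card_Vc, hm] at h1
  have hq : 0 < Fintype.card F := Fintype.card_pos
  have h2 : Nat.card (pu u ⊓ pu a).toAddSubgroup = Fintype.card F * Fintype.card F := by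
    apply Nat.eq_of_mul_eq_mul_left (Nat.mul_pos hq hq)
    rw [h1]; ring
  have h3 : (Submodule.span F {u, a}).toAddSubgroup ≤ (pu u ⊓ pu a).toAddSubgroup := by
    intro w hw
    obtain ⟨c, d, rfl⟩ := Submodule.mem_span_pair.1 hw
    rw [Submodule.mem_toAddSubgroup, Submodule.mem_inf, mem_pu, mem_pu]
    have hua := sf_comm0.1 hau
    constructor
    · rw [sf_add_left, sf_smul_left, sf_smul_left, sf_self, hau]; ring
    · rw [sf_add_left, sf_smul_left, sf_smul_left, sf_self, hua]; ring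
  have h4 := AddSubgroup.eq_of_le_of_card_ge h3 (by rw [h2, card_pair hu ha])
  have h5 : x ∈ (pu u ⊓ pu a).toAddSubgroup := ⟨hx, hx'⟩
  rw [← h4] at h5
  obtain ⟨c, d, h⟩ := Submodule.mem_span_pair.1 h5
  exact ⟨c, d, h.symm⟩

/-- A vector orthogonal to `u` outside `⟨u⟩`. -/
theorem exists_side (hm : 2 ≤ Fintype.card l) (hu : u ≠ 0) :
    ∃ a : Vc l F, sf a u = 0 ∧ ∀ c : F, a ≠ c • u := by
  by_contra hcon
  push Not at hcon
  have h1 := card_diff hu (pu u).toAddSubgroup (fun c => by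
    rw [Submodule.mem_toAddSubgroup, mem_pu, sf_smul_left, sf_self, mul_zero])
  have h2 : Nat.card {v : Vc l F // v ∈ (pu u).toAddSubgroup ∧ ∀ c : F, v ≠ c • u} = 0 := by
    rw [Nat.card_eq_zero]
    left
    constructor
    rintro ⟨v, hv, hv'⟩
    obtain ⟨c, hc⟩ := hcon v hv
    exact hv' c hc
  have h3 := q3_le hm hu
  have h4 : 1 < Fintype.card F := Fintype.one_lt_card
  have h5 : Fintype.card F ^ 1 < Fintype.card F ^ 3 := Nat.pow_lt_pow_right h4 (by norm_num)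
  rw [pow_one] at h5
  omega

theorem TII_even (hψ : ψ ≠ 1) (hm : 2 ≤ Fintype.card l) (hu : u ≠ 0) (hY : Yh u M ≠ ⊤)
    (hII : TII ψ u M) : (2 : F) = 0 := by
  by_contra h2
  obtain ⟨a, ha, ha'⟩ := exists_side hm hu
  obtain ⟨z, hz, hz'⟩ := exists_perp hu ha'
  apply hY
  exact Yh_top_of_comm h2 (TII_Bh hψ hII ha) (fun c => TII_Bh hψ hII (w := c • z) (by
    rw [sf_smul_left, hz, mul_zero])) hz'

theorem ac_mul_QQ {g e : Sp l F} (he : e ∈ QQ u) (hgu : ac g u = u) {x : Vc l F}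
    (hx : sf x u = 0) : ∃ c : F, ac (g * e) x = ac g x + c • u := by
  obtain ⟨c, hc⟩ := QQ_perp he hx
  exact ⟨c, by rw [ac_mul, hc, ac_add, ac_smul, hgu]⟩

theorem top_of_all (hq : 3 ≤ Fintype.card F) (Y : AddSubgroup F) (s : F)
    (h : ∀ t, t ≠ s → t ∈ Y) : Y = ⊤ := by
  classical
  rw [eq_top_iff]
  intro t _
  by_cases ht : t = s
  · obtain ⟨r, hr⟩ : ∃ r : F, r ∉ ({0, s} : Finset F) := by
      by_contra hcon
      push Not at hcon
      have h1 : Fintype.card F ≤ ({0, s} : Finset F).card := by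
        rw [← Finset.card_univ]
        exact Finset.card_le_card fun x _ => hcon x
      have h2 : ({0, s} : Finset F).card ≤ 2 := Finset.card_le_two
      omega
    rw [Finset.mem_insert, Finset.mem_singleton, not_or] at hr
    have h1 := Y.add_mem (h r hr.2) (h (s - r) (by
      intro h0
      apply hr.1
      linear_combination -h0))
    rw [ht]
    convert h1 using 1
    ring
  · exact h t ht

theorem TIII_rank (hψ : ψ ≠ 1) (hq : 3 ≤ Fintype.card F) (hA : SA ψ u M)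
    (hm : 3 ≤ Fintype.card l) (hY : Yh u M ≠ ⊤) {a : Vc l F} (hIII : TIII ψ u M a) : False := by
  obtain ⟨x, z, hxu, hxa, hzu, hza, hxz⟩ := exists_pair_perp hm u a
  have hau := Dh_perp hψ hIII.1
  apply hY
  by_cases h2 : (2 : F) = 0
  swap
  · exact Yh_top_of_comm h2 (TIII_Bh hψ hIII hxu hxa) (fun c => TIII_Bh hψ hIII (w := c • z) (by
      rw [sf_smul_left, hzu, mul_zero]) (by rw [sf_smul_left, hza, mul_zero])) hxz
  obtain ⟨hx0, s, hs⟩ := TIII_Bh hψ hIII hxu hxa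
  have key : ∀ x', sf x' u = 0 → sf x' a = 0 → (∃ z ∈ pu u ⊓ pu a, sf x' z ≠ 0) →
      qe u x' s ∈ M := by
    intro x' hu' ha' hz'
    obtain ⟨g, hg, hfix⟩ := exists_move2 (W := pu u ⊓ pu a) (x := x) (x' := x') ⟨hxu, hxa⟩
      ⟨hu', ha'⟩ ⟨z, ⟨hzu, hza⟩, hxz⟩ hz'
    obtain ⟨hgu, e, he, hM⟩ := hA a hIII.1 hIII.2.1 g (hfix u fun w hw => sf_comm0.1 hw.1)
      (hfix a fun w hw => sf_comm0.1 hw.2)
    obtain ⟨c, hc⟩ := ac_mul_QQ he hgu hxu
    have h3 := M.mul_mem (M.mul_mem hM hs) (M.inv_mem hM)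
    rw [conj_qe hx0, hc, hg, ac_mul, QQ_le_fixs u he, hgu, qe_add_smul (sf_comm0.1 hu'), h2,
      zero_mul, add_zero] at h3
    exact h3
  apply top_of_all hq _ s
  intro t ht
  have hzx : sf z x ≠ 0 := sf_ne_comm.1 hxz
  set r := (t - s) / sf z x with hr
  have hr0 : r ≠ 0 := div_ne_zero (sub_ne_zero.2 ht) hzx
  have hrz : sf (r • z) x = t - s := by rw [sf_smul_left, hr, div_mul_cancel₀ _ hzx]
  have h4 := key (r • z) (by rw [sf_smul_left, hzu, mul_zero]) (by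
    rw [sf_smul_left, hza, mul_zero]) ⟨x, ⟨hxu, hxa⟩, by
      rw [sf_smul_left]; exact mul_ne_zero hr0 hzx⟩
  have h5 := key (x + r • z) (by rw [sf_add_left, sf_smul_left, hxu, hzu]; ring) (by
    rw [sf_add_left, sf_smul_left, hxa, hza]; ring) ⟨z, ⟨hzu, hza⟩, by
      rw [sf_add_left, sf_smul_left, sf_self, mul_zero, add_zero]; exact hxz⟩
  have h0z : sf u (r • z) = 0 := by rw [sf_smul_right, sf_comm0.1 hzu, mul_zero]
  have h6 := M.mul_mem (M.mul_mem hs h4) (M.inv_mem h5)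
  rw [qe_mul hx0 h0z, hrz] at h6
  have e : qe u (x + r • z) (s + s + (t - s)) * (qe u (x + r • z) s)⁻¹ = tv u t := by
    rw [mul_inv_eq_iff_eq_mul, tv_mul_qe (by rw [sf_add_right, hx0, h0z, add_zero])]
    congr 1
    ring
  rw [e] at h6
  exact h6

end Cfsg.Agent.MinS
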