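import Cfsg.Agent.MinS.Fin

/-!
# Points of the second type: quadratic functions
-/

set_option autoImplicit false
set_option linter.unusedSectionVars false

namespace Cfsg.Agent.MinS

open Matrix Cfsg.Agent.ClassSp Cfsg.Agent.LSSp Cfsg.Agent.Mdx Finset

variable {l : Type*} [Fintype l] [DecidableEq l] {F : Type*} [Field F] [Fintype F]

section Sign

variable {ψ : AddChar F ℂ}

/-- The sign character. -/
noncomputable def sg (ψ : AddChar F ℂ) (t : F) : ℤ := by
  classical
  exact if ψ t = 1 then 1 else -1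

theorem sg_eq (t : F) : sg ψ t = 1 ∨ sg ψ t = -1 := by
  unfold sg; split_ifs <;> simp

theorem sg_sq (t : F) : sg ψ t * sg ψ t = 1 := by
  rcases sg_eq (ψ := ψ) t with h | h <;> rw [h] <;> norm_num

theorem sg_one_iff (t : F) : sg ψ t = 1 ↔ ψ t = 1 := by
  unfold sg
  split_ifs with h
  · simp [h]
  · simp [h]

theorem psi_pm (h2 : (2 : F) = 0) (t : F) : ψ t = 1 ∨ ψ t = -1 := by
  have h : ψ t * ψ t = 1 := by
    rw [← AddChar.map_add_eq_mul, ← two_mul, h2, zero_mul, AddChar.map_zero_eq_one]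
  exact mul_self_eq_one_iff.1 h

theorem sg_add (h2 : (2 : F) = 0) (a b : F) : sg ψ (a + b) = sg ψ a * sg ψ b := by
  have hne : (-1 : ℂ) ≠ 1 := by norm_num
  have hval : ∀ t : F, (ψ t = 1 ∧ sg ψ t = 1) ∨ (ψ t = -1 ∧ sg ψ t = -1) := by
    intro t
    rcases psi_pm (ψ := ψ) h2 t with h | h
    · exact Or.inl ⟨h, (sg_one_iff t).2 h⟩
    · refine Or.inr ⟨h, ?_⟩
      rcases sg_eq (ψ := ψ) t with h' | h'
      · rw [sg_one_iff, h] at h'
        exact absurd h' hne
      · exact h'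
  rcases hval a with ⟨h1, h1'⟩ | ⟨h1, h1'⟩ <;> rcases hval b with ⟨h3, h3'⟩ | ⟨h3, h3'⟩ <;>
    rcases hval (a + b) with ⟨h4, h4'⟩ | ⟨h4, h4'⟩ <;>
    rw [AddChar.map_add_eq_mul, h1, h3] at h4 <;> rw [h1', h3', h4'] <;>
    first
    | (norm_num; done)
    | (exfalso; revert h4; norm_num)

theorem sg_zero : sg ψ 0 = 1 := (sg_one_iff 0).2 (AddChar.map_zero_eq_one ψ)

theorem exists_sg (hψ : ψ ≠ 1) : ∃ t, sg ψ t = -1 := by
  by_contra h
  push Not at h
  apply hψ
  ext t
  rw [AddChar.one_apply, ← sg_one_iff]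
  exact (sg_eq t).resolve_right (h t)

theorem exists_sg_mul (hψ : ψ ≠ 1) {a : F} (ha : a ≠ 0) : ∃ c, sg ψ (c * a) = -1 := by
  obtain ⟨t, ht⟩ := exists_sg hψ
  exact ⟨t * a⁻¹, by rw [mul_assoc, inv_mul_cancel₀ ha, mul_one, ht]⟩

theorem exists_sg_vec (hψ : ψ ≠ 1) {z : Vc l F} (hz : z ≠ 0) : ∃ c : Vc l F, sg ψ (sf z c) = -1 := by
  obtain ⟨v, hv⟩ := exists_dual hz
  obtain ⟨t, ht⟩ := exists_sg hψ
  exact ⟨t • v, by rw [sf_smul_right, hv, mul_one, ht]⟩

/-- Sum of a sign function that is multiplicative and not trivial. -/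
theorem sum_sign_zero {A : Type*} [AddCommGroup A] [Fintype A] (f : A → ℤ) (W : Finset A) (x₀ : A)
    (hW : ∀ x, x + x₀ ∈ W ↔ x ∈ W) (hf : ∀ x ∈ W, f (x + x₀) = - f x) : ∑ x ∈ W, f x = 0 := by
  classical
  have h : ∑ x ∈ W, f x = ∑ x ∈ W, f (x + x₀) := by
    symm
    apply Finset.sum_bij (fun x _ => x + x₀)
    · intro a ha; exact (hW a).2 ha
    · intro a _ b _ h; exact add_right_cancel h
    · intro b hb
      refine ⟨b - x₀, ?_, sub_add_cancel _ _⟩
      rw [← hW, sub_add_cancel]; exact hb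
    · intro a _; rfl
  rw [Finset.sum_congr rfl hf, Finset.sum_neg_distrib] at h
  linarith

theorem sum_sg (hψ : ψ ≠ 1) (h2 : (2 : F) = 0) (z : Vc l F) [Decidable (z = 0)] :
    ∑ c : Vc l F, sg ψ (sf z c) = if z = 0 then (Fintype.card (Vc l F) : ℤ) else 0 := by
  split_ifs with h
  · subst h
    rw [Finset.sum_congr rfl (fun c _ => by rw [sf_zero_left, sg_zero])]
    simp
  · obtain ⟨c₀, hc₀⟩ := exists_sg_vec hψ h
    exact sum_sign_zero (fun c => sg ψ (sf z c)) Finset.univ c₀ (fun x => by simp) (fun x _ => by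
      rw [sf_add_right, sg_add h2, hc₀]; ring)

theorem sf_symm2 (h2 : (2 : F) = 0) (x y : Vc l F) : sf x y = sf y x := by
  rw [sf_swap]; linear_combination (-sf y x) * h2

theorem add_self2 (h2 : (2 : F) = 0) (x : Vc l F) : x + x = 0 := by
  have : x + x = (2 : F) • x := by module
  rw [this, h2, zero_smul]

theorem eq_of_add_eq_zero2 (h2 : (2 : F) = 0) {x y : Vc l F} (h : x + y = 0) : x = y := by
  have : x = (x + y) + y - (y + y) := by module
  rw [this, h, add_self2 h2]; module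

/-- Representability of sign functions on additive subgroups. -/
theorem rep_sign (hψ : ψ ≠ 1) (h2 : (2 : F) = 0) (W : AddSubgroup (Vc l F)) (α : Vc l F → ℤ)
    (hα : ∀ x ∈ W, α x = 1 ∨ α x = -1)
    (hmul : ∀ x ∈ W, ∀ y ∈ W, α (x + y) = α x * α y) :
    ∃ c : Vc l F, ∀ x ∈ W, α x = sg ψ (sf x c) := by
  classical
  set S : Finset (Vc l F) := Finset.univ.filter fun x => x ∈ W with hS
  have hmemS : ∀ x, x ∈ S ↔ x ∈ W := fun x => by rw [hS, Finset.mem_filter]; simp
  have hsq : ∀ x ∈ W, α x * α x = 1 := by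
    intro x hx
    rcases hα x hx with h | h <;> rw [h] <;> norm_num
  have key : ∑ c : Vc l F, (∑ x ∈ S, α x * sg ψ (sf x c)) ^ 2 =
      (Fintype.card (Vc l F) : ℤ) * S.card := by
    have e1 : ∀ c : Vc l F, (∑ x ∈ S, α x * sg ψ (sf x c)) ^ 2 =
        ∑ x ∈ S, ∑ y ∈ S, α x * α y * sg ψ (sf (x + y) c) := by
      intro c
      rw [sq, Finset.sum_mul_sum]
      refine Finset.sum_congr rfl fun x _ => Finset.sum_congr rfl fun y _ => ?_
      rw [sf_add_left, sg_add h2]; ring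
    rw [Finset.sum_congr rfl (fun c _ => e1 c), Finset.sum_comm]
    have e2 : ∀ x ∈ S, ∑ c : Vc l F, ∑ y ∈ S, α x * α y * sg ψ (sf (x + y) c) =
        (Fintype.card (Vc l F) : ℤ) := by
      intro x hx
      rw [Finset.sum_comm]
      have e3 : ∀ y ∈ S, ∑ c : Vc l F, α x * α y * sg ψ (sf (x + y) c) =
          if y = x then (Fintype.card (Vc l F) : ℤ) else 0 := by
        intro y hy
        rw [← Finset.mul_sum, sum_sg hψ h2]
        by_cases hyx : y = x
        · subst hyx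
          rw [if_pos (add_self2 h2 y), if_pos rfl, hsq y ((hmemS y).1 hy), one_mul]
        · rw [if_neg (fun h => hyx (eq_of_add_eq_zero2 h2 h).symm), if_neg hyx, mul_zero]
      rw [Finset.sum_congr rfl e3, Finset.sum_ite_eq' S x, if_pos hx]
    rw [Finset.sum_congr rfl e2, Finset.sum_const, nsmul_eq_mul, mul_comm]
  obtain ⟨c, hc⟩ : ∃ c : Vc l F, ∑ x ∈ S, α x * sg ψ (sf x c) ≠ 0 := by
    by_contra hcon
    push Not at hcon
    rw [Finset.sum_congr rfl (fun c _ => by rw [hcon c])] at key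
    simp only [ne_eq, OfNat.ofNat_ne_zero, not_false_eq_true, zero_pow, Finset.sum_const_zero] at key
    have h1 : (0 : ℤ) < (Fintype.card (Vc l F) : ℤ) * S.card := by
      have h3 : 0 < S.card := Finset.card_pos.2 ⟨0, (hmemS 0).2 W.zero_mem⟩
      have h4 : 0 < Fintype.card (Vc l F) := Fintype.card_pos
      positivity
    omega
  refine ⟨c, fun x hx => ?_⟩
  by_contra hne
  apply hc
  have hxc : α x * sg ψ (sf x c) = -1 := by
    rcases hα x hx with h | h <;> rcases sg_eq (ψ := ψ) (sf x c) with h' | h' <;>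
      rw [h, h'] at hne ⊢ <;>
      first
      | exact absurd rfl hne
      | norm_num
  apply sum_sign_zero (fun x => α x * sg ψ (sf x c)) S x
  · intro y
    rw [hmemS, hmemS]
    exact ⟨fun h => by simpa using W.sub_mem h hx, fun h => W.add_mem h hx⟩
  · intro y hy
    have hy' := (hmemS y).1 hy
    calc α (y + x) * sg ψ (sf (y + x) c) = (α y * sg ψ (sf y c)) * (α x * sg ψ (sf x c)) := by
          rw [hmul y hy' x hx, sf_add_left, sg_add h2]; ring
      _ = -(α y * sg ψ (sf y c)) := by rw [hxc]; ring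

/-- Standard quadratic function. -/
noncomputable def q0 (x : Vc l F) : F := ∑ i, x (Sum.inl i) * x (Sum.inr i)

theorem q0_add (h2 : (2 : F) = 0) (x y : Vc l F) : q0 (x + y) = q0 x + q0 y + sf x y := by
  unfold q0 sf
  rw [← Finset.sum_add_distrib, ← Finset.sum_add_distrib]
  refine Finset.sum_congr rfl fun i _ => ?_
  simp only [Pi.add_apply]
  linear_combination (x (Sum.inr i) * y (Sum.inl i)) * h2

/-- The quadratic sign functions. -/
noncomputable def th (ψ : AddChar F ℂ) (c x : Vc l F) : ℤ := sg ψ (q0 x) * sg ψ (sf x c)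

theorem th_eq (c x : Vc l F) : th ψ c x = 1 ∨ th ψ c x = -1 := by
  unfold th
  rcases sg_eq (ψ := ψ) (q0 x) with h | h <;> rcases sg_eq (ψ := ψ) (sf x c) with h' | h' <;>
    rw [h, h'] <;> norm_num

theorem th_sq (c x : Vc l F) : th ψ c x * th ψ c x = 1 := by
  rcases th_eq (ψ := ψ) c x with h | h <;> rw [h] <;> norm_num

theorem th_add (h2 : (2 : F) = 0) (c x y : Vc l F) :
    th ψ c (x + y) = th ψ c x * th ψ c y * sg ψ (sf x y) := by
  unfold th
  rw [q0_add h2, sg_add h2, sg_add h2, sf_add_left, sg_add h2]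
  ring

theorem th_zero (c : Vc l F) : th ψ c 0 = 1 := by
  unfold th
  have : q0 (0 : Vc l F) = 0 := by simp [q0]
  rw [this, sf_zero_left, sg_zero]; norm_num

theorem th_mul (h2 : (2 : F) = 0) (c c' x : Vc l F) :
    th ψ c x * th ψ c' x = sg ψ (sf x (c + c')) := by
  unfold th
  rw [sf_add_right, sg_add h2]
  calc _ = (sg ψ (q0 x) * sg ψ (q0 x)) * (sg ψ (sf x c) * sg ψ (sf x c')) := by ring
    _ = _ := by rw [sg_sq, one_mul]

theorem sum_th_th (hψ : ψ ≠ 1) (h2 : (2 : F) = 0) (c c' : Vc l F) [Decidable (c' = c)] :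
    ∑ x : Vc l F, th ψ c' x * th ψ c x = if c' = c then (Fintype.card (Vc l F) : ℤ) else 0 := by
  classical
  rw [Finset.sum_congr rfl (fun x _ => by rw [th_mul h2, sf_symm2 h2]), sum_sg hψ h2]
  by_cases h : c' = c
  · subst h
    rw [if_pos (add_self2 h2 _), if_pos rfl]
  · rw [if_neg (fun h' => h (eq_of_add_eq_zero2 h2 h')), if_neg h]

/-- Square of the Gauss sum. -/
theorem gauss2 (hψ : ψ ≠ 1) (h2 : (2 : F) = 0) (c : Vc l F) :
    (∑ x : Vc l F, th ψ c x) ^ 2 = (Fintype.card (Vc l F) : ℤ) := by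
  classical
  have e1 : (∑ x : Vc l F, th ψ c x) ^ 2 =
      ∑ x : Vc l F, ∑ z : Vc l F, th ψ c z * sg ψ (sf z x) := by
    rw [sq, Finset.sum_mul_sum]
    refine Finset.sum_congr rfl fun x _ => ?_
    rw [← Equiv.sum_comp (Equiv.addLeft x) (fun y => th ψ c x * th ψ c y)]
    refine Finset.sum_congr rfl fun z _ => ?_
    rw [Equiv.coe_addLeft, th_add h2, sf_symm2 h2 x z]
    calc th ψ c x * (th ψ c x * th ψ c z * sg ψ (sf z x))
        = (th ψ c x * th ψ c x) * (th ψ c z * sg ψ (sf z x)) := by ring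
      _ = _ := by rw [th_sq, one_mul]
  rw [e1, Finset.sum_comm]
  have e2 : ∀ z : Vc l F, ∑ x : Vc l F, th ψ c z * sg ψ (sf z x) =
      if z = 0 then (Fintype.card (Vc l F) : ℤ) else 0 := by
    intro z
    rw [← Finset.mul_sum, sum_sg hψ h2]
    split_ifs with h
    · rw [h, th_zero, one_mul]
    · rw [mul_zero]
  rw [Finset.sum_congr rfl (fun z _ => e2 z), Finset.sum_ite_eq' Finset.univ (0 : Vc l F)]
  simp

theorem sum_gauss (hψ : ψ ≠ 1) (h2 : (2 : F) = 0) :
    ∑ c : Vc l F, ∑ x : Vc l F, th ψ c x = (Fintype.card (Vc l F) : ℤ) := by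
  classical
  rw [Finset.sum_comm]
  have e : ∀ x : Vc l F, ∑ c : Vc l F, th ψ c x =
      if x = 0 then (Fintype.card (Vc l F) : ℤ) else 0 := by
    intro x
    unfold th
    rw [← Finset.mul_sum, sum_sg hψ h2]
    split_ifs with h
    · have : q0 x = 0 := by rw [h]; simp [q0]
      rw [this, sg_zero, one_mul]
    · rw [mul_zero]
  rw [Finset.sum_congr rfl (fun z _ => e z), Finset.sum_ite_eq' Finset.univ (0 : Vc l F)]
  simp

/-- Both signs occur. -/
theorem both_signs (hψ : ψ ≠ 1) (h2 : (2 : F) = 0) {T : ℤ} (hT : 2 ≤ T)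
    (hV : (Fintype.card (Vc l F) : ℤ) = T ^ 2) :
    (∃ c : Vc l F, ∑ x : Vc l F, th ψ c x = T) ∧ ∃ c : Vc l F, ∑ x : Vc l F, th ψ c x = -T := by
  have h1 : ∀ c : Vc l F, ∑ x : Vc l F, th ψ c x = T ∨ ∑ x : Vc l F, th ψ c x = -T := by
    intro c
    have := gauss2 hψ h2 c
    rw [hV] at this
    exact sq_eq_sq_iff_eq_or_eq_neg.1 this
  have h3 := sum_gauss (l := l) hψ h2
  constructor
  · by_contra hcon
    push Not at hcon
    rw [Finset.sum_congr rfl (fun c _ => (h1 c).resolve_left (hcon c)), Finset.sum_const,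
      Finset.card_univ, nsmul_eq_mul, hV] at h3
    nlinarith
  · by_contra hcon
    push Not at hcon
    rw [Finset.sum_congr rfl (fun c _ => (h1 c).resolve_right (hcon c)), Finset.sum_const,
      Finset.card_univ, nsmul_eq_mul, hV] at h3
    nlinarith

end Sign

end Cfsg.Agent.MinS
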