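import Cfsg.Agent.MinS.Even

/-!
# Points of the second type: the contradiction
-/

set_option autoImplicit false
set_option linter.unusedSectionVars false

namespace Cfsg.Agent.MinS

open Matrix Cfsg.Agent.ClassSp Cfsg.Agent.LSSp Cfsg.Agent.Mdx Finset

variable {l : Type*} [Fintype l] [DecidableEq l] {F : Type*} [Field F] [Fintype F]
variable {ψ : AddChar F ℂ} {M : Subgroup (Sp l F)}

theorem exists_perm (hψ : ψ ≠ 1) (h2 : (2 : F) = 0) (g : Sp l F) :
    ∃ π : Vc l F ≃ Vc l F, ∀ c x, th ψ c (ac g x) = th ψ (π c) x := by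
  obtain ⟨d, hd⟩ := rep_sign (ψ := ψ) hψ h2 (⊤ : AddSubgroup (Vc l F))
    (fun x => sg ψ (q0 (ac g x)) * sg ψ (q0 x)) (by
      intro x _
      rcases sg_eq (ψ := ψ) (q0 (ac g x)) with h | h <;>
        rcases sg_eq (ψ := ψ) (q0 x) with h' | h' <;> simp only [h, h'] <;> norm_num) (by
      intro x _ y _
      simp only [ac_add, q0_add h2, sg_add h2, sf_ac]
      calc _ = sg ψ (q0 (ac g x)) * sg ψ (q0 x) * (sg ψ (q0 (ac g y)) * sg ψ (q0 y)) *
            (sg ψ (sf x y) * sg ψ (sf x y)) := by ring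
        _ = _ := by rw [sg_sq, mul_one])
  refine ⟨⟨fun c => d + ac g⁻¹ c, fun c => ac g (c - d), fun c => ?_, fun c => ?_⟩, fun c x => ?_⟩
  · simp only
    rw [add_sub_cancel_left, ac_ac_inv]
  · simp only
    rw [ac_inv_ac]; module
  · have h1 := hd x (AddSubgroup.mem_top x)
    have h3 : sf (ac g x) c = sf x (ac g⁻¹ c) := by
      rw [← sf_ac g x, ac_ac_inv]
    change sg ψ (q0 (ac g x)) * sg ψ (sf (ac g x) c) = sg ψ (q0 x) * sg ψ (sf x (d + ac g⁻¹ c))
    rw [h3, sf_add_right, sg_add h2, ← h1]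
    calc _ = sg ψ (q0 (ac g x)) * sg ψ (sf x (ac g⁻¹ c)) := rfl
      _ = (sg ψ (q0 x) * sg ψ (q0 x)) * (sg ψ (q0 (ac g x)) * sg ψ (sf x (ac g⁻¹ c))) := by
          rw [sg_sq, one_mul]
      _ = _ := by ring

theorem even_arith {T r r' κ q : ℤ} (hq : 3 ≤ q) (hT : 2 * q < T)
    (h1 : T ^ 2 * r = (T ^ 2 - 1) * q + κ * (T - 1))
    (h2 : T ^ 2 * r' = (T ^ 2 - 1) * q + κ * (-T - 1)) : False := by
  have h3 : T * (T * (r - r')) = T * (2 * κ) := by linear_combination h1 - h2
  have hT0 : T ≠ 0 := by linarith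
  have h4 := mul_left_cancel₀ hT0 h3
  have h5 : T ∣ 2 * q := ⟨2 * T * q + (r - r') * (T - 1) - 2 * T * r, by
    linear_combination 2 * h1 - (T - 1) * h4⟩
  have := Int.le_of_dvd (by linarith) h5
  linarith

theorem even_absurd (hψ : ψ ≠ 1) (h2 : (2 : F) = 0) (hq : 3 ≤ Fintype.card F)
    (hm : 2 ≤ Fintype.card l)
    (hT : ∀ x y : Vc l F, x ≠ 0 → y ≠ 0 → ∃ g ∈ M, ac g x = y)
    (hφ : ∀ u : Vc l F, u ≠ 0 → OutII M u)
    (hY : ∀ u : Vc l F, u ≠ 0 → ∀ s, tv u s ∈ M → s = 0) : False := by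
  classical
  have hex : ∀ u w : Vc l F, ∃ s : F, u ≠ 0 → sf w u = 0 → qe u w s ∈ M := by
    intro u w
    by_cases hu : u ≠ 0
    · by_cases hw : sf w u = 0
      · obtain ⟨s, hs⟩ := hφ u hu w hw
        exact ⟨s, fun _ _ => hs⟩
      · exact ⟨0, fun _ h => absurd h hw⟩
    · exact ⟨0, fun h => absurd h hu⟩
  choose φ hφM using hex
  have huniq : ∀ {u w : Vc l F} {s : F}, u ≠ 0 → sf w u = 0 → qe u w s ∈ M → s = φ u w := by
    intro u w s hu hw hs
    have h1 := M.mul_mem hs (M.inv_mem (hφM u w hu hw))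
    have e : qe u w s * (qe u w (φ u w))⁻¹ = tv u (s - φ u w) := by
      rw [mul_inv_eq_iff_eq_mul, tv_mul_qe (sf_comm0.1 hw), sub_add_cancel]
    rw [e] at h1
    exact sub_eq_zero.1 (hY u hu _ h1)
  have hadd : ∀ {u w w' : Vc l F}, u ≠ 0 → sf w u = 0 → sf w' u = 0 →
      φ u (w + w') = φ u w + φ u w' + sf w' w := by
    intro u w w' hu hw hw'
    symm
    apply huniq hu (by rw [sf_add_left, hw, hw', add_zero])
    rw [← qe_mul (sf_comm0.1 hw) (sf_comm0.1 hw')]
    exact M.mul_mem (hφM u w hu hw) (hφM u w' hu hw')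
  have hequiv : ∀ {g : Sp l F} {u w : Vc l F}, g ∈ M → u ≠ 0 → sf w u = 0 →
      φ (ac g u) (ac g w) = φ u w := by
    intro g u w hg hu hw
    symm
    apply huniq (ac_ne_zero hu) (by rw [sf_ac, hw])
    have h1 := M.mul_mem (M.mul_mem hg (hφM u w hu hw)) (M.inv_mem hg)
    rwa [conj_qe (sf_comm0.1 hw)] at h1
  -- the incidence relation
  let I : Vc l F → Vc l F → Prop := fun c u => u ≠ 0 ∧ ∀ w, sf w u = 0 → th ψ c w = sg ψ (φ u w)
  let r : Vc l F → ℕ := fun c => (univ.filter fun u => I c u).card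
  have hrinv : ∀ g ∈ M, ∀ π : Vc l F ≃ Vc l F, (∀ c x, th ψ c (ac g x) = th ψ (π c) x) →
      ∀ c, r (π c) = r c := by
    intro g hg π hπ c
    symm
    refine Finset.card_equiv ⟨ac g⁻¹, ac g, ac_ac_inv g, ac_inv_ac g⟩ fun u => ?_
    simp only [Finset.mem_filter, Finset.mem_univ, true_and, Equiv.coe_fn_mk]
    constructor
    · rintro ⟨hu, h⟩
      refine ⟨ac_ne_zero hu, fun w hw => ?_⟩
      have hw' : sf (ac g w) u = 0 := by
        rw [← ac_ac_inv g u, sf_ac]; exact hw
      rw [← hπ, h _ hw']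
      have := hequiv (M.inv_mem hg) hu hw'
      rw [ac_inv_ac] at this
      rw [this]
    · rintro ⟨hu, h⟩
      have hu' : u ≠ 0 := by
        rintro rfl
        exact hu (ac_zero _)
      refine ⟨hu', fun w hw => ?_⟩
      have hw' : sf (ac g⁻¹ w) (ac g⁻¹ u) = 0 := by rw [sf_ac, hw]
      have h1 := h _ hw'
      rw [← hπ, ac_ac_inv, hequiv (M.inv_mem hg) hu' hw] at h1
      exact h1
  let R : Vc l F → ℤ := fun x => ∑ c : Vc l F, (r c : ℤ) * th ψ c x
  have hRinv : ∀ g ∈ M, ∀ x, R (ac g x) = R x := by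
    intro g hg x
    obtain ⟨π, hπ⟩ := exists_perm (ψ := ψ) hψ h2 g
    calc R (ac g x) = ∑ c : Vc l F, (r (π c) : ℤ) * th ψ (π c) x := by
          refine Finset.sum_congr rfl fun c _ => ?_
          rw [hπ, hrinv g hg π hπ]
      _ = R x := Equiv.sum_comp π (fun c => (r c : ℤ) * th ψ c x)
  obtain ⟨x₁, hx₁⟩ : ∃ x : Vc l F, x ≠ 0 := by
    have : Nontrivial (Vc l F) := by
      have : Nonempty l := by
        rw [← Fintype.card_pos_iff]; omega
      infer_instance
    exact exists_ne 0
  have hconst : ∀ x, x ≠ 0 → R x = R x₁ := by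
    intro x hx
    obtain ⟨g, hg, h⟩ := hT x₁ x hx₁ hx
    rw [← h, hRinv g hg]
  -- the number of incidences
  have htau : ∀ u : Vc l F, u ≠ 0 → (univ.filter fun c => I c u).card = Fintype.card F := by
    intro u hu
    obtain ⟨c₀, hc₀⟩ := rep_sign (ψ := ψ) hψ h2 (pu u).toAddSubgroup
      (fun w => sg ψ (φ u w) * sg ψ (q0 w)) (by
        intro x _
        rcases sg_eq (ψ := ψ) (φ u x) with h | h <;>
          rcases sg_eq (ψ := ψ) (q0 x) with h' | h' <;> simp only [h, h'] <;> norm_num) (by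
        intro x hx y hy
        simp only [q0_add h2, sg_add h2, hadd hu hx hy, sf_symm2 h2 y x]
        calc _ = sg ψ (φ u x) * sg ψ (q0 x) * (sg ψ (φ u y) * sg ψ (q0 y)) *
              (sg ψ (sf x y) * sg ψ (sf x y)) := by ring
          _ = _ := by rw [sg_sq, mul_one])
    have hth : ∀ w, sf w u = 0 → th ψ c₀ w = sg ψ (φ u w) := by
      intro w hw
      unfold th
      rw [← hc₀ w hw]
      calc _ = sg ψ (φ u w) * (sg ψ (q0 w) * sg ψ (q0 w)) := by ring
        _ = _ := by rw [sg_sq, mul_one]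
    have e : (univ.filter fun c => I c u) = univ.image (fun t : F => c₀ + t • u) := by
      ext c
      simp only [Finset.mem_filter, Finset.mem_univ, true_and, Finset.mem_image]
      constructor
      · rintro ⟨-, h⟩
        by_contra hcon
        push Not at hcon
        obtain ⟨z, hz, hz'⟩ := exists_perp (u := u) (x := c₀ + c) hu (by
          intro t ht
          apply hcon t
          rw [← ht, ← add_assoc, add_self2 h2, zero_add])
        obtain ⟨a, ha⟩ := exists_sg_mul hψ (sf_ne_comm.1 hz')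
        have hw : sf (a • z) u = 0 := by rw [sf_smul_left, hz, mul_zero]
        have h3 := th_mul (ψ := ψ) h2 c₀ c (a • z)
        rw [hth _ hw, h _ hw, sg_sq, sf_smul_left, ha] at h3
        norm_num at h3
      · rintro ⟨t, rfl⟩
        refine ⟨hu, fun w hw => ?_⟩
        rw [← hth w hw]
        unfold th
        rw [sf_add_right, sf_smul_right, hw, mul_zero, add_zero]
    rw [e, Finset.card_image_of_injective, Finset.card_univ]
    intro t t' h
    exact smul_left_injective F hu (add_left_cancel h)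
  have hR0 : R 0 = ((Fintype.card (Vc l F) : ℤ) - 1) * Fintype.card F := by
    have e1 : R 0 = ((∑ c : Vc l F, (univ.filter fun u => I c u).card : ℕ) : ℤ) := by
      push_cast
      refine Finset.sum_congr rfl fun c _ => ?_
      rw [th_zero, mul_one]
    have e2 : ∑ c : Vc l F, (univ.filter fun u => I c u).card =
        ∑ u : Vc l F, (univ.filter fun c => I c u).card := by
      simp_rw [Finset.card_filter]
      rw [Finset.sum_comm]
    have e3 : ∀ u : Vc l F, (univ.filter fun c => I c u).card =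
        if u = 0 then 0 else Fintype.card F := by
      intro u
      split_ifs with h
      · rw [Finset.card_eq_zero, Finset.filter_eq_empty_iff]
        intro c _ hc
        exact hc.1 h
      · exact htau u h
    have e4 : ∑ u : Vc l F, (univ.filter fun c => I c u).card + Fintype.card F =
        Fintype.card (Vc l F) * Fintype.card F := by
      rw [Finset.sum_congr rfl (fun u _ => e3 u)]
      have e5 : ∀ u : Vc l F, (if u = 0 then 0 else Fintype.card F) +
          (if u = 0 then Fintype.card F else 0) = Fintype.card F := by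
        intro u; split_ifs <;> simp
      have e6 := Finset.sum_congr (rfl : (univ : Finset (Vc l F)) = univ) (fun u _ => e5 u)
      rw [Finset.sum_add_distrib, Finset.sum_ite_eq' univ (0 : Vc l F), if_pos (mem_univ _),
        Finset.sum_const, Finset.card_univ, smul_eq_mul] at e6
      exact e6
    rw [e1, e2]
    have e7 : ((∑ u : Vc l F, (univ.filter fun c => I c u).card : ℕ) : ℤ) + Fintype.card F =
        (Fintype.card (Vc l F) : ℤ) * Fintype.card F := by exact_mod_cast e4
    linear_combination e7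
  -- inversion
  have hinv : ∀ c : Vc l F, (Fintype.card (Vc l F) : ℤ) * r c =
      R 0 + R x₁ * ((∑ x : Vc l F, th ψ c x) - 1) := by
    intro c
    have e1 : ∑ x : Vc l F, R x * th ψ c x = (Fintype.card (Vc l F) : ℤ) * r c := by
      have : ∀ x : Vc l F, R x * th ψ c x =
          ∑ c' : Vc l F, (r c' : ℤ) * (th ψ c' x * th ψ c x) := by
        intro x
        rw [Finset.sum_mul]
        exact Finset.sum_congr rfl fun c' _ => by ring
      rw [Finset.sum_congr rfl (fun x _ => this x), Finset.sum_comm]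
      have e2 : ∀ c' : Vc l F, ∑ x : Vc l F, (r c' : ℤ) * (th ψ c' x * th ψ c x) =
          if c' = c then (Fintype.card (Vc l F) : ℤ) * r c else 0 := by
        intro c'
        rw [← Finset.mul_sum, sum_th_th hψ h2]
        split_ifs with h
        · rw [h, mul_comm]
        · rw [mul_zero]
      rw [Finset.sum_congr rfl (fun c' _ => e2 c'), Finset.sum_ite_eq' univ c,
        if_pos (mem_univ _)]
    rw [← e1, ← Finset.add_sum_erase _ _ (Finset.mem_univ (0 : Vc l F)), th_zero, mul_one]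
    congr 1
    have e3 : (∑ x : Vc l F, th ψ c x) - 1 = ∑ x ∈ univ.erase (0 : Vc l F), th ψ c x := by
      rw [← Finset.add_sum_erase _ _ (Finset.mem_univ (0 : Vc l F)), th_zero]
      ring
    rw [e3, Finset.mul_sum]
    refine Finset.sum_congr rfl fun x hx => ?_
    rw [hconst x (Finset.ne_of_mem_erase hx)]
  -- conclusion
  set q := Fintype.card F with hqdef
  have hV : (Fintype.card (Vc l F) : ℤ) = ((q : ℤ) ^ Fintype.card l) ^ 2 := by
    have := card_Vc (l := l) (F := F)
    rw [Nat.card_eq_fintype_card] at this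
    rw [this]; push_cast; ring
  have hq4 : 4 ≤ q := by
    by_contra h
    exact two_ne_zero_of_three (F := F) (by omega) h2
  have hTq : (2 : ℤ) * q < (q : ℤ) ^ Fintype.card l := by
    have h3 : q ^ 2 ≤ q ^ Fintype.card l := Nat.pow_le_pow_right (by omega) hm
    have h4 : 2 * q < q ^ Fintype.card l := by nlinarith
    exact_mod_cast h4
  have hT2 : (2 : ℤ) ≤ (q : ℤ) ^ Fintype.card l := by
    have : (4 : ℤ) ≤ q := by exact_mod_cast hq4
    linarith
  obtain ⟨⟨c, hc⟩, c', hc'⟩ := both_signs (l := l) hψ h2 hT2 hV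
  have h3 := hinv c
  have h4 := hinv c'
  rw [hc, hR0, hV] at h3
  rw [hc', hR0, hV] at h4
  exact even_arith (by exact_mod_cast (by omega : 3 ≤ q)) hTq h3 h4

/-- All points outside `C` are of the second type: impossible. -/
theorem II_absurd (hψ : ψ ≠ 1) (h2 : (2 : F) = 0) (hq : 3 ≤ Fintype.card F)
    (hm : 2 ≤ Fintype.card l) (hII : ∀ u : Vc l F, ¬ Cn M u → OutII M u)
    (hne : ∃ u : Vc l F, ¬ Cn M u) : False := by
  have hside : ∀ c x : Vc l F, c ≠ 0 → ∃ z, z ≠ 0 ∧ sf z c = 0 ∧ sf z x = 0 := by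
    intro c x hc
    by_cases hcx : sf c x = 0
    · exact ⟨c, hc, sf_self c, hcx⟩
    · obtain ⟨a, ha, ha'⟩ := exists_side hm hc
      refine ⟨a - (sf a x / sf c x) • c, ?_, ?_, ?_⟩
      · intro h0
        exact ha' _ (sub_eq_zero.1 h0)
      · rw [sf_sub_left, sf_smul_left, sf_self, ha]; ring
      · rw [sf_sub_left, sf_smul_left, div_mul_cancel₀ _ hcx, sub_self]
  -- there are no centres
  have hno : ∀ c : Vc l F, c ≠ 0 → ¬ Cn M c := by
    intro c hc hcC
    obtain ⟨u, hu⟩ := hne
    obtain ⟨z, hz0, hzc, hzu⟩ := hside c u hc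
    have hz : Cn M z := by
      by_contra hz
      exact no_Cn_of_II hq (hII z hz) hz hcC hc (sf_comm0.1 hzc)
    exact no_Cn_of_II hq (hII u hu) hu hz hz0 hzu
  have hII' : ∀ u : Vc l F, u ≠ 0 → OutII M u := fun u hu => hII u (hno u hu)
  -- transitivity
  have step : ∀ x y : Vc l F, x ≠ 0 → sf x y = 0 → (∀ c : F, y ≠ c • x) → ∃ g ∈ M, ac g x = y := by
    intro x y hx hxy hne'
    have hu0 : y - x ≠ 0 := by
      intro h0
      exact hne' 1 (by rw [one_smul]; exact sub_eq_zero.1 h0)
    have hxu : sf x (y - x) = 0 := by rw [sf_sub_right, hxy, sf_self, sub_zero]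
    obtain ⟨z, hz, hz'⟩ := exists_perp (u := y - x) (x := x) hu0 (by
      intro c hc
      by_cases hc0 : c = 0
      · rw [hc0, zero_smul] at hc
        exact hx hc
      · apply hne' (1 + c⁻¹)
        have h1 : y - x = c⁻¹ • x := by
          conv_rhs => rw [hc]
          rw [smul_smul, inv_mul_cancel₀ hc0, one_smul]
        have : y = x + (y - x) := by module
        rw [this, h1]; module)
    obtain ⟨s, hs⟩ := hII' _ hu0 ((sf x z)⁻¹ • z) (by rw [sf_smul_left, hz, mul_zero])
    refine ⟨_, hs, ?_⟩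
    rw [ac_qe_perp (by rw [sf_smul_right, sf_comm0.1 hz, mul_zero]) s hxu, sf_smul_right,
      inv_mul_cancel₀ hz']
    module
  have trans : ∀ x y z : Vc l F, (∃ g ∈ M, ac g x = y) → (∃ g ∈ M, ac g y = z) →
      ∃ g ∈ M, ac g x = z := by
    rintro x y z ⟨g, hg, rfl⟩ ⟨h, hh, rfl⟩
    exact ⟨h * g, M.mul_mem hh hg, ac_mul _ _ _⟩
  have hT : ∀ x y : Vc l F, x ≠ 0 → y ≠ 0 → ∃ g ∈ M, ac g x = y := by
    intro x y hx hy
    by_cases hxy : sf x y = 0
    · by_cases hd : ∀ c : F, y ≠ c • x
      · exact step x y hx hxy hd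
      · push Not at hd
        obtain ⟨c, rfl⟩ := hd
        have hc : c ≠ 0 := by rintro rfl; exact hy (zero_smul _ _)
        obtain ⟨z, hz, hz'⟩ := exists_side hm hx
        have hz0 : z ≠ 0 := fun h => hz' 0 (by rw [h, zero_smul])
        refine trans x z _ (step x z hx (sf_comm0.1 hz) hz') (step z _ hz0 (by
          rw [sf_smul_right, hz, mul_zero]) ?_)
        intro d hd
        have hd0 : d ≠ 0 := by
          rintro rfl
          rw [zero_smul] at hd
          exact hy hd
        apply hz' (d⁻¹ * c)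
        rw [← smul_smul, hd, smul_smul, inv_mul_cancel₀ hd0, one_smul]
    · obtain ⟨z, hz0, hzx, hzy⟩ := hside x y hx
      refine trans x z y (step x z hx (sf_comm0.1 hzx) ?_) (step z y hz0 hzy ?_)
      · rintro c rfl
        have hc : c ≠ 0 := by rintro rfl; exact hz0 (zero_smul _ _)
        rw [sf_smul_left] at hzy
        exact hxy ((mul_eq_zero.1 hzy).resolve_left hc)
      · rintro c rfl
        apply hxy
        rw [sf_smul_right, sf_comm0.1 hzx, mul_zero]
  refine even_absurd hψ h2 hq hm hT hII' ?_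
  intro u hu s hs
  by_contra hs0
  apply hno u hu
  intro t
  -- every element is a square
  obtain ⟨c, hc⟩ : ∃ c : F, c ^ 2 * s = t := by
    have hinj : Function.Injective (fun c : F => c ^ 2) := by
      intro a b hab
      have hab' : a ^ 2 = b ^ 2 := hab
      rcases sq_eq_sq_iff_eq_or_eq_neg.1 hab' with h | h
      · exact h
      · rw [h]; linear_combination (-b) * h2
    obtain ⟨c, hc⟩ := Finite.surjective_of_injective hinj (t / s)
    exact ⟨c, by
      have hc' : c ^ 2 = t / s := hc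
      rw [hc', div_mul_cancel₀ _ hs0]⟩
  by_cases hc0 : c = 0
  · rw [hc0] at hc
    have ht : t = 0 := by rw [← hc]; ring
    rw [ht, tv_zero]; exact M.one_mem
  · obtain ⟨g, hg, hgu⟩ := hT u (c • u) hu (smul_ne_zero hc0 hu)
    have h1 := M.mul_mem (M.mul_mem hg hs) (M.inv_mem hg)
    rwa [conj_tv, hgu, tv_smul, hc] at h1

end Cfsg.Agent.MinS
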