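import Cfsg.Agent.MinS.T1

/-!
# Centres of transvection groups in `M`
-/

set_option autoImplicit false
set_option linter.unusedSectionVars false

namespace Cfsg.Agent.MinS

open Matrix Cfsg.Agent.ClassSp Cfsg.Agent.LSSp Cfsg.Agent.Mdx

variable {l : Type*} [Fintype l] [DecidableEq l] {F : Type*} [Field F] [Fintype F]
variable {ψ : AddChar F ℂ} {u : Vc l F} {M : Subgroup (Sp l F)}

/-- `x` is a centre: the whole transvection group is in `M`. -/
def Cn (M : Subgroup (Sp l F)) (x : Vc l F) : Prop := ∀ s : F, tv x s ∈ M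

theorem Cn_iff {x : Vc l F} : Cn M x ↔ Yh x M = ⊤ := by
  constructor
  · intro h
    rw [eq_top_iff]
    exact fun s _ => h s
  · intro h s
    have : s ∈ Yh x M := by rw [h]; exact AddSubgroup.mem_top s
    exact this

theorem Cn_zero : Cn M (0 : Vc l F) := by
  intro s
  have : tv (0 : Vc l F) s = (1 : Sp l F) := by
    apply ac_ext; intro v
    rw [ac_tv, ac_one]; module
  rw [this]; exact M.one_mem

theorem Cn_smul {x : Vc l F} (h : Cn M x) (c : F) : Cn M (c • x) := by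
  intro s
  rw [tv_smul]; exact h _

theorem Cn_ac {g : Sp l F} (hg : g ∈ M) {x : Vc l F} (h : Cn M x) : Cn M (ac g x) := by
  intro s
  rw [← conj_tv]
  exact M.mul_mem (M.mul_mem hg (h s)) (M.inv_mem hg)

theorem Cn_ac_iff {g : Sp l F} (hg : g ∈ M) {x : Vc l F} : Cn M (ac g x) ↔ Cn M x := by
  constructor
  · intro h
    have := Cn_ac (M.inv_mem hg) h
    rwa [ac_inv_ac] at this
  · exact Cn_ac hg

theorem Cn_add {x y : Vc l F} (hx : Cn M x) (hy : Cn M y) (h : sf x y ≠ 0) : Cn M (x + y) := by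
  have h' : sf y x ≠ 0 := sf_ne_comm.1 h
  have h1 := Cn_ac (hx (sf y x)⁻¹) hy
  rw [ac_tv, inv_mul_cancel₀ h', one_smul, add_comm] at h1
  exact h1

/-- The output of the analysis of points of the first type. -/
def OutI (M : Subgroup (Sp l F)) (u : Vc l F) : Prop :=
  ∃ W : Submodule F (Vc l F), (∀ w ∈ W, sf w u = 0) ∧ (∀ w ∈ W, Cn M w) ∧
    (∀ x, sf x u = 0 → ∃ β : F, x - β • u ∈ W) ∧
    (∀ w s, sf u w = 0 → qe u w s ∈ M → ∃ c : F, w = c • u)

theorem outI_of (hψ : ψ ≠ 1) (hq : 3 ≤ Fintype.card F) (hA : SA ψ u M)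
    (hm : 2 ≤ Fintype.card l) (hexc : ¬ (Fintype.card l = 2 ∧ Fintype.card F = 3)) (hu : u ≠ 0)
    (hY : Yh u M ≠ ⊤) (hk : Small u M) (hI : TI ψ u M) : OutI M u := by
  obtain ⟨c, hc, hc1, τ, hτM, hτu, hτ⟩ := exists_tau hψ hq hA hm hu hY hk hI
  exact ⟨Wt u τ, fun w hw => hw.1, fun w hw s =>
    tv_mem_of_Wt hψ hq hA hm hexc hu hI hc hc1 hτM hτu hτ hw s,
    fun x hx => Wt_proj hc1 hτu hτ hx, fun w s hw hs => TI_Bh hψ hu hI ⟨hw, s, hs⟩⟩

theorem tv_tv_eq {w : Vc l F} (huw : sf u w = 0) (s : F) :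
    tv (u + w) s * tv w (-s) = qe u (s • w) s := by
  have hwu := sf_comm0.1 huw
  apply ac_ext; intro x
  rw [ac_mul, ac_tv, ac_tv, ac_qe (by rw [sf_smul_right, huw, mul_zero])]
  simp only [sf_add_left, sf_add_right, sf_smul_left, sf_smul_right, sf_self, huw, hwu]
  module

theorem Cn_add_I (hI : ∀ u : Vc l F, ¬ Cn M u → OutI M u) {x y : Vc l F} (hx : Cn M x)
    (hy : Cn M y) : Cn M (x + y) := by
  by_cases h : sf x y = 0
  swap
  · exact Cn_add hx hy h
  by_contra hu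
  obtain ⟨u, hu'⟩ : ∃ u, u = x + y := ⟨_, rfl⟩
  rw [← hu'] at hu
  have hu0 : u ≠ 0 := by rintro rfl; exact hu Cn_zero
  obtain ⟨W, hW1, hW2, hW3, hW4⟩ := hI _ hu
  have hxu : sf x u = 0 := by rw [hu', sf_add_right, sf_self, h, add_zero]
  have hxc : ∀ c : F, x ≠ c • u := by
    intro c hc
    by_cases hc0 : c = 0
    · rw [hc0, zero_smul] at hc
      apply hu
      rw [hu', hc, zero_add]; exact hy
    · apply hu
      have := Cn_smul hx c⁻¹
      rwa [hc, smul_smul, inv_mul_cancel₀ hc0, one_smul] at this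
  obtain ⟨z, hz, hz'⟩ := exists_perp hu0 hxc
  obtain ⟨β, hβ⟩ := hW3 z hz
  set w := z - β • u with hw
  have hxw : sf x w ≠ 0 := by
    rw [hw, sf_sub_right, sf_smul_right, hxu, mul_zero, sub_zero]; exact hz'
  have hwu := hW1 w hβ
  have h1 : Cn M (x + w) := Cn_add hx (hW2 w hβ) hxw
  have h2 : sf (x + w) y ≠ 0 := by
    have : y = u - x := by rw [hu']; module
    rw [sf_add_left, h, zero_add, this, sf_sub_right, hwu, zero_sub, neg_ne_zero]
    exact sf_ne_comm.1 hxw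
  have h3 : Cn M (u + w) := by
    have := Cn_add h1 hy h2
    have e : x + w + y = u + w := by rw [hu']; module
    rwa [e] at this
  have h4 := M.mul_mem (h3 1) (hW2 w hβ (-1))
  rw [tv_tv_eq (sf_comm0.1 hwu), one_smul] at h4
  obtain ⟨c, hc⟩ := hW4 w 1 (sf_comm0.1 hwu) h4
  apply hxw
  rw [hc, sf_smul_right, hxu, mul_zero]

/-- Vectors representing linear functionals. -/
theorem exists_rep (f : Vc l F →ₗ[F] F) : ∃ x : Vc l F, ∀ y, f y = sf y x := by
  classical
  refine ⟨fun i => Sum.elim (fun i => -f (Pi.single (Sum.inr i) 1))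
    (fun i => f (Pi.single (Sum.inl i) 1)) i, fun y => ?_⟩
  have h1 : f y = ∑ i, y i * f (Pi.single i 1) := by
    conv_lhs => rw [pi_eq_sum_univ' y]
    rw [map_sum]
    refine Finset.sum_congr rfl fun i _ => ?_
    rw [map_smul, smul_eq_mul]
  rw [h1, Fintype.sum_sum_type, sf, Finset.sum_sub_distrib]
  simp only [Sum.elim_inl, Sum.elim_inr, mul_neg, Finset.sum_neg_distrib, sub_neg_eq_add]

/-- If all points outside `C` are of the first type, `M` fixes a point. -/
theorem fixes_point (hm : 2 ≤ Fintype.card l) (hI : ∀ u : Vc l F, ¬ Cn M u → OutI M u)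
    (hne : ∃ u : Vc l F, ¬ Cn M u) : ∃ x : Vc l F, x ≠ 0 ∧ M ≤ PP x := by
  let K : Submodule F (Vc l F) :=
    { carrier := {x | Cn M x}
      add_mem' := fun hx hy => Cn_add_I hI hx hy
      zero_mem' := Cn_zero
      smul_mem' := fun c _ hx => Cn_smul hx c }
  have hK : ∀ x, x ∈ K ↔ Cn M x := fun x => Iff.rfl
  obtain ⟨u, hu⟩ := hne
  have hu0 : u ≠ 0 := by rintro rfl; exact hu Cn_zero
  obtain ⟨W, hW1, hW2, hW3, hW4⟩ := hI u hu
  obtain ⟨a, ha, hac⟩ := exists_side hm hu0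
  obtain ⟨z, hz, hz'⟩ := exists_perp hu0 hac
  obtain ⟨β, hβ⟩ := hW3 a ha
  obtain ⟨γ, hγ⟩ := hW3 z hz
  set w := a - β • u with hw
  set y₀ := z - γ • u with hy₀
  have hwy : sf y₀ w ≠ 0 := by
    rw [hw, hy₀, sf_sub_left, sf_sub_right, sf_sub_right, sf_smul_left, sf_smul_right,
      sf_smul_right, sf_smul_left, hz, sf_self, sf_comm0.1 ha]
    simpa using sf_ne_comm.1 hz'
  set u' := u + w with hu'
  have hu'K : ¬ Cn M u' := by
    intro h
    apply hu
    have : u = u' - w := by rw [hu']; module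
    rw [this]
    exact K.sub_mem h (hW2 w hβ)
  obtain ⟨W', hW1', hW2', hW3', -⟩ := hI u' hu'K
  have hyu' : sf y₀ u' ≠ 0 := by
    rw [hu', sf_add_right, hW1 y₀ hγ, zero_add]; exact hwy
  have hall : ∀ x, ∃ b : F, x - b • u' ∈ K := by
    intro x
    obtain ⟨b, hb⟩ := hW3' (x - (sf x u' / sf y₀ u') • y₀) (by
      rw [sf_sub_left, sf_smul_left, div_mul_cancel₀ _ hyu', sub_self])
    refine ⟨b, ?_⟩
    have h1 : (x - (sf x u' / sf y₀ u') • y₀ - b • u') + (sf x u' / sf y₀ u') • y₀ ∈ K :=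
      K.add_mem (hW2' _ hb) (K.smul_mem _ (hW2 _ hγ))
    have e : (x - (sf x u' / sf y₀ u') • y₀ - b • u') + (sf x u' / sf y₀ u') • y₀ =
      x - b • u' := by module
    rwa [e] at h1
  have hlt : K < ⊤ := by
    rw [lt_top_iff_ne_top]
    intro h
    apply hu
    have : u ∈ K := by rw [h]; exact Submodule.mem_top
    exact this
  obtain ⟨f, hf0, hf⟩ := Submodule.exists_le_ker_of_lt_top K hlt
  obtain ⟨x, hx⟩ := exists_rep f
  have hux : sf u' x ≠ 0 := by
    intro h0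
    apply hf0
    ext1 i
    ext
    simp only [LinearMap.coe_comp, LinearMap.coe_single, Function.comp_apply,
      LinearMap.zero_apply]
    obtain ⟨b, hb⟩ := hall (Pi.single i 1)
    have h1 := hf hb
    rw [LinearMap.mem_ker, map_sub, map_smul, hx u', h0, smul_zero, sub_zero] at h1
    exact h1
  have hx0 : x ≠ 0 := by
    rintro rfl
    exact hux (sf_zero_right _)
  have hKx : ∀ y, Cn M y ↔ sf y x = 0 := by
    intro y
    constructor
    · intro h
      have := hf ((hK y).2 h)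
      rwa [LinearMap.mem_ker, hx] at this
    · intro h
      obtain ⟨b, hb⟩ := hall y
      have h1 := hf hb
      rw [LinearMap.mem_ker, hx, sf_sub_left, sf_smul_left, h, zero_sub, neg_eq_zero] at h1
      have hb0 := (mul_eq_zero.1 h1).resolve_right hux
      rw [hb0, zero_smul, sub_zero] at hb
      exact hb
  refine ⟨x, hx0, fun g hg => ?_⟩
  by_contra hcon
  obtain ⟨z', hz1, hz2⟩ := exists_perp (u := x) (x := ac g x) hx0 (by
    intro c hc
    apply hcon
    refine ⟨c, ?_, hc⟩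
    rintro rfl
    rw [zero_smul] at hc
    exact ac_ne_zero hx0 hc)
  apply hz2
  rw [sf_comm0, ← sf_ac_left, ← hKx, Cn_ac_iff (M.inv_mem hg), hKx]
  exact hz1

/-! ### Points of the second type -/

/-- Output for the points of the second type. -/
def OutII (M : Subgroup (Sp l F)) (u : Vc l F) : Prop := ∀ w, sf w u = 0 → ∃ s, qe u w s ∈ M

theorem outII_of (hψ : ψ ≠ 1) (hII : TII ψ u M) : OutII M u := fun _ hw => (TII_Bh hψ hII hw).2

theorem no_Cn_of_II (hq : 3 ≤ Fintype.card F) (hII : OutII M u) (hu : ¬ Cn M u) {c : Vc l F}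
    (hc : Cn M c) (hc0 : c ≠ 0) (hcu : sf c u = 0) : False := by
  classical
  have hu0 : u ≠ 0 := by rintro rfl; exact hu Cn_zero
  have hcc : ∀ a : F, c ≠ a • u := by
    rintro a rfl
    have ha : a ≠ 0 := by rintro rfl; exact hc0 (zero_smul _ _)
    apply hu
    have := Cn_smul hc a⁻¹
    rwa [smul_smul, inv_mul_cancel₀ ha, one_smul] at this
  obtain ⟨z, hz, hz'⟩ := exists_perp hu0 hcc
  have h1 : ∀ t : F, Cn M (t • u + c) := by
    intro t
    obtain ⟨s, hs⟩ := hII ((t / sf c z) • z) (by rw [sf_smul_left, hz, mul_zero])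
    have h2 := Cn_ac hs hc
    rw [ac_qe_perp (by rw [sf_smul_right, sf_comm0.1 hz, mul_zero]) s hcu, sf_smul_right,
      div_mul_cancel₀ _ hz', add_comm] at h2
    exact h2
  have hucz := sf_comm0.1 hcu
  have h2 : ∀ t s : F, qe u ((t * s) • c) (t * (t * s)) ∈ M := by
    intro t s
    have h3 := M.mul_mem (h1 t s) (hc (-s))
    rw [tv_tv_eq (by rw [sf_smul_left, hucz, mul_zero]),
      qe_smul_left (by rw [sf_smul_right, hucz, mul_zero]), smul_smul] at h3
    convert h3 using 2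
    ring
  obtain ⟨r, hr⟩ : ∃ r : F, r ∉ ({0, 1} : Finset F) := by
    by_contra hcon
    push Not at hcon
    have h1 : Fintype.card F ≤ ({0, 1} : Finset F).card := by
      rw [← Finset.card_univ]
      exact Finset.card_le_card fun x _ => hcon x
    have h2 : ({0, 1} : Finset F).card ≤ 2 := Finset.card_le_two
    omega
  rw [Finset.mem_insert, Finset.mem_singleton, not_or] at hr
  have hr1 : r - 1 ≠ 0 := sub_ne_zero.2 hr.2
  apply hu
  intro t
  have h4 := h2 r (t / (r - 1) / r)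
  have h5 := h2 1 (t / (r - 1))
  rw [mul_div_cancel₀ _ hr.1] at h4
  rw [one_mul, one_mul] at h5
  have h6 := M.mul_mem h4 (M.inv_mem h5)
  have e : qe u ((t / (r - 1)) • c) (r * (t / (r - 1))) * (qe u ((t / (r - 1)) • c) (t / (r - 1)))⁻¹
      = tv u t := by
    rw [mul_inv_eq_iff_eq_mul, tv_mul_qe (by rw [sf_smul_right, hucz, mul_zero])]
    congr 1
    field_simp
    ring
  rwa [e] at h6

/-- The two types do not occur together. -/
theorem not_both (hq : 3 ≤ Fintype.card F) (hm : 2 ≤ Fintype.card l) {u₀ : Vc l F}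
    (hu₀ : ¬ Cn M u₀) (hI : OutI M u₀) (hu : ¬ Cn M u) (hII : OutII M u) : False := by
  have hu0 : u₀ ≠ 0 := by rintro rfl; exact hu₀ Cn_zero
  obtain ⟨W, hW1, hW2, hW3, hW4⟩ := hI
  obtain ⟨a, ha, hac⟩ := exists_side hm hu0
  obtain ⟨z, hz, hz'⟩ := exists_perp hu0 hac
  obtain ⟨β, hβ⟩ := hW3 a ha
  obtain ⟨γ, hγ⟩ := hW3 z hz
  obtain ⟨w, hw⟩ : ∃ w, w = a - β • u₀ := ⟨_, rfl⟩
  obtain ⟨y₀, hy₀⟩ : ∃ y₀, y₀ = z - γ • u₀ := ⟨_, rfl⟩
  have hwy : sf y₀ w ≠ 0 := by
    rw [hw, hy₀, sf_sub_left, sf_sub_right, sf_sub_right, sf_smul_left, sf_smul_right,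
      sf_smul_right, sf_smul_left, hz, sf_self, sf_comm0.1 ha]
    simpa using sf_ne_comm.1 hz'
  rw [← hw] at hβ
  rw [← hy₀] at hγ
  by_cases h : sf w u = 0
  · exact no_Cn_of_II hq hII hu (hW2 w hβ) (sf_ne_zero_right hwy) h
  · refine no_Cn_of_II hq hII hu (c := y₀ - (sf y₀ u / sf w u) • w)
      (hW2 _ (W.sub_mem hγ (W.smul_mem _ hβ))) ?_ ?_
    · intro h0
      apply hwy
      have : y₀ = (sf y₀ u / sf w u) • w := sub_eq_zero.1 h0
      rw [this, sf_smul_left, sf_self, mul_zero]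
    · rw [sf_sub_left, sf_smul_left, div_mul_cancel₀ _ h, sub_self]

end Cfsg.Agent.MinS
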