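import Cfsg.Agent.MinS.Base

/-!
# Local analysis at a point: counting
-/

set_option autoImplicit false
set_option linter.unusedSectionVars false

namespace Cfsg.Agent.MinS

open Matrix Cfsg.Agent.ClassSp Cfsg.Agent.LSSp Cfsg.Agent.Mdx

variable {l : Type*} [Fintype l] [DecidableEq l] {F : Type*} [Field F] [Fintype F]

/-- The form as a bilinear form. -/
noncomputable def sB (l : Type*) [Fintype l] (F : Type*) [Field F] :
    LinearMap.BilinForm F (l ⊕ l → F) :=
  LinearMap.mk₂ F sf sf_add_left sf_smul_left sf_add_right sf_smul_right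

theorem sB_apply (u v : Vc l F) : sB l F u v = sf u v := rfl

/-- The vectors `w` with a Siegel element in `M`. -/
def Bh (u : Vc l F) (M : Subgroup (Sp l F)) : AddSubgroup (Vc l F) where
  carrier := {w | sf u w = 0 ∧ ∃ s, qe u w s ∈ M}
  zero_mem' := ⟨sf_zero_right u, 0, by rw [qe_zero, tv_zero]; exact M.one_mem⟩
  add_mem' := by
    rintro w w' ⟨h, s, hs⟩ ⟨h', s', hs'⟩
    refine ⟨by rw [sf_add_right, h, h', add_zero], s + s' + sf w' w, ?_⟩
    rw [← qe_mul h h']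
    exact M.mul_mem hs hs'
  neg_mem' := by
    rintro w ⟨h, s, hs⟩
    refine ⟨by rw [sf_neg_right, h, neg_zero], -s, ?_⟩
    rw [← qe_inv h]
    exact M.inv_mem hs

theorem mem_Bh {u w : Vc l F} {M : Subgroup (Sp l F)} :
    w ∈ Bh u M ↔ sf u w = 0 ∧ ∃ s, qe u w s ∈ M := Iff.rfl

/-- The transvection part. -/
def Yh (u : Vc l F) (M : Subgroup (Sp l F)) : AddSubgroup F where
  carrier := {s | tv u s ∈ M}
  zero_mem' := by
    change tv u 0 ∈ M
    rw [tv_zero]; exact M.one_mem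
  add_mem' := by
    intro a b ha hb
    change tv u (a + b) ∈ M
    rw [tv_add]; exact M.mul_mem ha hb
  neg_mem' := by
    intro a ha
    change tv u (-a) ∈ M
    rw [tv_neg]; exact M.inv_mem ha

theorem mem_Yh {u : Vc l F} {M : Subgroup (Sp l F)} {s : F} : s ∈ Yh u M ↔ tv u s ∈ M := Iff.rfl

theorem smul_mem_Bh (u : Vc l F) (M : Subgroup (Sp l F)) (c : F) : c • u ∈ Bh u M := by
  refine ⟨by rw [sf_smul_right, sf_self, mul_zero], -(2 * c), ?_⟩
  rw [qe_smul_self, neg_add_cancel, tv_zero]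
  exact M.one_mem

theorem qe_inj {u w w' : Vc l F} (hu : u ≠ 0) (h : sf u w = 0) (h' : sf u w' = 0) {s s' : F}
    (he : qe u w s = (qe u w' s' : Sp l F)) : ∃ c : F, w' = w + c • u ∧ s = s' + 2 * c := by
  obtain ⟨c, hc⟩ : ∃ c : F, w' - w = c • u := by
    by_contra hcon
    push Not at hcon
    obtain ⟨z, hz, hz'⟩ := exists_perp hu hcon
    have h1 : ac (qe u w s) z = ac (qe u w' s') z := by rw [he]
    rw [ac_qe_perp h s hz, ac_qe_perp h' s' hz, add_right_inj] at h1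
    apply hz'
    rw [sf_swap, sf_sub_right, neg_eq_zero, sub_eq_zero]
    exact (smul_left_injective F hu h1).symm
  have hw' : w' = w + c • u := by rw [← hc]; module
  refine ⟨c, hw', ?_⟩
  rw [hw', qe_add_smul h] at he
  obtain ⟨v, hv⟩ := exists_dual hu
  have hvu : sf v u = -1 := by rw [sf_swap, hv]
  have h1 : ac (qe u w s) v = ac (qe u w (s' + 2 * c)) v := by rw [he]
  rw [ac_qe h, ac_qe h, add_right_inj] at h1
  have h2 := smul_left_injective F hu h1
  simp only [hvu] at h2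
  linear_combination -h2

theorem card_inf_QQ {u : Vc l F} (hu : u ≠ 0) (M : Subgroup (Sp l F)) :
    Nat.card ↥(M ⊓ QQ u) * Fintype.card F = Nat.card (Bh u M) * Nat.card (Yh u M) := by
  classical
  obtain ⟨v, hv⟩ := exists_dual hu
  let P := {p : Vc l F × F // sf u p.1 = 0 ∧ qe u p.1 p.2 ∈ M}
  have e1 : Nat.card P = Nat.card (↥(M ⊓ QQ u) × F) := by
    apply Nat.card_congr
    refine Equiv.ofBijective (fun p : P => (⟨qe u p.1.1 p.1.2, p.2.2, qe_mem_QQ p.2.1 _⟩,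
      sf p.1.1 v)) ⟨?_, ?_⟩
    · rintro ⟨⟨w, s⟩, h, hM⟩ ⟨⟨w', s'⟩, h', hM'⟩ hh
      have h1 : qe u w s = qe u w' s' := congrArg (fun z => z.1.1) hh
      have h2 : sf w v = sf w' v := congrArg (fun z => z.2) hh
      obtain ⟨c, hc, hc'⟩ := qe_inj (w := w) (w' := w') hu h h' h1
      have hc0 : c = 0 := by
        rw [hc, sf_add_left, sf_smul_left, hv] at h2
        linear_combination -h2
      subst hc0
      have e1 : w' = w := by rw [hc]; module
      have e2 : s = s' := by rw [hc']; ring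
      subst e1 e2
      rfl
    · rintro ⟨⟨g, hgM, w, s, hw, rfl⟩, t⟩
      refine ⟨⟨(w + (t - sf w v) • u, s - 2 * (t - sf w v)), ?_, ?_⟩, ?_⟩
      · change sf u (w + (t - sf w v) • u) = 0
        rw [sf_add_right, sf_smul_right, sf_self, hw]; ring
      · change qe u (w + (t - sf w v) • u) (s - 2 * (t - sf w v)) ∈ M
        rw [qe_add_smul hw, sub_add_cancel]
        exact hgM
      · apply Prod.ext
        · apply Subtype.ext
          change qe u (w + (t - sf w v) • u) (s - 2 * (t - sf w v)) = qe u w s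
          rw [qe_add_smul hw, sub_add_cancel]
        · change sf (w + (t - sf w v) • u) v = t
          rw [sf_add_left, sf_smul_left, hv]; ring
  have e2 : Nat.card P = Nat.card (Bh u M × Yh u M) := by
    apply Nat.card_congr
    choose f hf using fun w : Bh u M => w.2.2
    refine Equiv.ofBijective (fun p : P => (⟨p.1.1, p.2.1, p.1.2, p.2.2⟩,
      ⟨p.1.2 - f ⟨p.1.1, p.2.1, p.1.2, p.2.2⟩, ?_⟩)) ⟨?_, ?_⟩
    · rw [mem_Yh]
      have h1 := M.mul_mem p.2.2 (M.inv_mem (hf ⟨p.1.1, p.2.1, p.1.2, p.2.2⟩))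
      rw [qe_inv p.2.1, qe_mul p.2.1 (by rw [sf_neg_right, p.2.1, neg_zero]), sf_neg_left,
        sf_self, ← sub_eq_add_neg, sub_self, neg_zero, add_zero, qe_zero] at h1
      rwa [sub_eq_add_neg]
    · rintro ⟨⟨w, s⟩, h, hM⟩ ⟨⟨w', s'⟩, h', hM'⟩ hh
      have h1 : w = w' := congrArg (fun z => z.1.1) hh
      subst h1
      have h2 : s - f ⟨w, h, s, hM⟩ = s' - f ⟨w, h, s', hM'⟩ := congrArg (fun z => z.2.1) hh
      have h3 : s = s' := sub_left_injective h2
      subst h3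
      rfl
    · rintro ⟨w, ⟨y, hy⟩⟩
      refine ⟨⟨(w.1, y + f w), w.2.1, ?_⟩, ?_⟩
      · change qe u w.1 (y + f w) ∈ M
        rw [← tv_mul_qe w.2.1]
        exact M.mul_mem hy (hf w)
      · apply Prod.ext
        · rfl
        · apply Subtype.ext
          change y + f w - f w = y
          ring
  rw [e1, Nat.card_prod, Nat.card_prod] at e2
  rw [← e2, Nat.card_eq_fintype_card (α := F)]

theorem Bh_top (u : Vc l F) : Bh u ⊤ = (pu u).toAddSubgroup := by
  ext w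
  rw [mem_Bh, Submodule.mem_toAddSubgroup, mem_pu, sf_comm0]
  exact ⟨fun h => h.1, fun h => ⟨h, 0, Subgroup.mem_top _⟩⟩

theorem card_Vc : Nat.card (Vc l F) = Fintype.card F ^ (2 * Fintype.card l) := by
  rw [Nat.card_eq_fintype_card, Fintype.card_fun, Fintype.card_sum]
  ring_nf

theorem nd (b : Vc l F) (hb : b ≠ 0) : ∃ y, sB l F y b ≠ 0 := exists_sf_ne_zero hb

variable {ψ : AddChar F ℂ}

theorem psi_all (hψ : ψ ≠ 1) {t : F} (h : ∀ c : F, ψ (c * t) = 1) : t = 0 := by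
  by_contra ht
  apply hψ
  ext s
  have := h (s * t⁻¹)
  rw [mul_assoc, inv_mul_cancel₀ ht, mul_one] at this
  rw [this, AddChar.one_apply]

theorem psi_symm (x y : Vc l F) : ψ (sB l F x y) = 1 ↔ ψ (sB l F y x) = 1 := by
  rw [sB_apply, sB_apply, sf_swap, AddChar.map_neg_eq_inv, inv_eq_one]

theorem mem_dp_submodule (hψ : ψ ≠ 1) (W : Submodule F (Vc l F)) (y : Vc l F) :
    y ∈ dp ψ (sB l F) W.toAddSubgroup ↔ ∀ w ∈ W, sf y w = 0 := by
  rw [mem_dp]
  constructor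
  · intro h w hw
    apply psi_all hψ
    intro c
    have := h (c • w) (W.smul_mem c hw)
    rwa [sB_apply, sf_smul_right] at this
  · intro h w hw
    rw [sB_apply, h w hw, AddChar.map_zero_eq_one]

theorem card_span {u : Vc l F} (hu : u ≠ 0) :
    Nat.card (Submodule.span F {u}).toAddSubgroup = Fintype.card F := by
  have h1 : Function.Bijective (fun c : F => (⟨c • u, Submodule.smul_mem _ c
      (Submodule.mem_span_singleton_self u)⟩ : (Submodule.span F {u}).toAddSubgroup)) := by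
    constructor
    · intro c d h
      exact smul_left_injective F hu (congrArg Subtype.val h)
    · rintro ⟨w, hw⟩
      obtain ⟨c, rfl⟩ := Submodule.mem_span_singleton.1 hw
      exact ⟨c, rfl⟩
  rw [← Nat.card_eq_fintype_card]
  exact (Nat.card_congr (Equiv.ofBijective _ h1)).symm

theorem dp_span (hψ : ψ ≠ 1) (u : Vc l F) :
    dp ψ (sB l F) (Submodule.span F {u}).toAddSubgroup = (pu u).toAddSubgroup := by
  ext y
  rw [mem_dp_submodule hψ, Submodule.mem_toAddSubgroup, mem_pu]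
  constructor
  · intro h
    exact h u (Submodule.mem_span_singleton_self u)
  · intro h w hw
    obtain ⟨c, rfl⟩ := Submodule.mem_span_singleton.1 hw
    rw [sf_smul_right, h, mul_zero]

theorem card_pu {u : Vc l F} (hu : u ≠ 0) :
    Fintype.card F * Nat.card (pu u).toAddSubgroup = Nat.card (Vc l F) := by
  obtain ⟨ψ, hψ⟩ := exists_addChar (F := F)
  have := card_mul_card_dp hψ nd (Submodule.span F {u}).toAddSubgroup
  rwa [card_span hu, dp_span hψ] at this

theorem card_Yh_top (u : Vc l F) : Nat.card (Yh u ⊤) = Fintype.card F := by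
  have : Yh u (⊤ : Subgroup (Sp l F)) = ⊤ := by
    rw [eq_top_iff]
    intro s _
    exact Subgroup.mem_top (tv u s : Sp l F)
  rw [this, AddSubgroup.card_top, Nat.card_eq_fintype_card]

theorem card_QQ {u : Vc l F} (hu : u ≠ 0) :
    Nat.card (QQ u) = Nat.card (pu u).toAddSubgroup := by
  have h := card_inf_QQ hu ⊤
  rw [top_inf_eq, card_Yh_top, Bh_top] at h
  exact Nat.eq_of_mul_eq_mul_right Fintype.card_pos h

variable (ψ) in
/-- The dual of `Bh`. -/
noncomputable def Dh (u : Vc l F) (M : Subgroup (Sp l F)) : AddSubgroup (Vc l F) := dp ψ (sB l F) (Bh u M)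

theorem mem_Dh {u : Vc l F} {M : Subgroup (Sp l F)} {y : Vc l F} :
    y ∈ Dh ψ u M ↔ ∀ b ∈ Bh u M, ψ (sf y b) = 1 := Iff.rfl

theorem Dh_perp (hψ : ψ ≠ 1) {u : Vc l F} {M : Subgroup (Sp l F)} {y : Vc l F}
    (hy : y ∈ Dh ψ u M) : sf y u = 0 := by
  apply psi_all hψ
  intro c
  have := mem_Dh.1 hy (c • u) (smul_mem_Bh u M c)
  rwa [sf_smul_right] at this

theorem smul_mem_Dh (u : Vc l F) (M : Subgroup (Sp l F)) (c : F) : c • u ∈ Dh ψ u M := by
  rw [mem_Dh]
  intro b hb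
  rw [sf_smul_left, hb.1, mul_zero, AddChar.map_zero_eq_one]

theorem dp_Dh (hψ : ψ ≠ 1) (u : Vc l F) (M : Subgroup (Sp l F)) :
    dp ψ (sB l F) (Dh ψ u M) = Bh u M := dp_dp hψ nd psi_symm _

theorem mem_Bh_of (hψ : ψ ≠ 1) {u : Vc l F} {M : Subgroup (Sp l F)} {w : Vc l F}
    (h : ∀ d ∈ Dh ψ u M, sf w d = 0) : w ∈ Bh u M := by
  rw [← dp_Dh hψ u M, mem_dp]
  intro d hd
  rw [sB_apply, h d hd, AddChar.map_zero_eq_one]

theorem card_Bh_mul (hψ : ψ ≠ 1) (u : Vc l F) (M : Subgroup (Sp l F)) :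
    Nat.card (Bh u M) * Nat.card (Dh ψ u M) = Nat.card (Vc l F) := card_mul_card_dp hψ nd _

theorem rel_QQ (hψ : ψ ≠ 1) {u : Vc l F} (hu : u ≠ 0) (M : Subgroup (Sp l F)) :
    M.relIndex (QQ u) * Nat.card (Yh u M) = Nat.card (Dh ψ u M) := by
  have h1 := card_rel M (QQ u)
  have h2 := card_inf_QQ hu M
  have h3 := card_QQ hu
  have h4 := card_pu hu
  have h5 := card_Bh_mul hψ u M
  have hb : 0 < Nat.card (Bh u M) := Nat.card_pos
  apply Nat.eq_of_mul_eq_mul_left hb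
  rw [h5, ← h4, ← h3, h1]
  calc Nat.card (Bh u M) * (M.relIndex (QQ u) * Nat.card (Yh u M))
      = M.relIndex (QQ u) * (Nat.card (Bh u M) * Nat.card (Yh u M)) := by ring
    _ = M.relIndex (QQ u) * (Nat.card ↥(M ⊓ QQ u) * Fintype.card F) := by rw [h2]
    _ = _ := by ring

theorem Bh_inv {u : Vc l F} {M : Subgroup (Sp l F)} {g : Sp l F} (hg : g ∈ M) (hu : ac g u = u)
    {b : Vc l F} (hb : b ∈ Bh u M) : ac g b ∈ Bh u M := by
  obtain ⟨h, s, hs⟩ := hb
  refine ⟨?_, s, ?_⟩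
  · have := sf_ac g u b
    rwa [hu, h] at this
  · have h1 := M.mul_mem (M.mul_mem hg hs) (M.inv_mem hg)
    rwa [conj_qe h, hu] at h1

theorem Dh_inv {u : Vc l F} {M : Subgroup (Sp l F)} {g : Sp l F} (hg : g ∈ M) (hu : ac g u = u)
    {y : Vc l F} (hy : y ∈ Dh ψ u M) : ac g y ∈ Dh ψ u M := by
  rw [mem_Dh] at hy ⊢
  intro b hb
  have h1 : sf (ac g y) b = sf y (ac g⁻¹ b) := by
    rw [← sf_ac g y, ac_ac_inv]
  rw [h1]
  exact hy _ (Bh_inv (M.inv_mem hg) (ac_inv_fix hu) hb)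

theorem Dh_KK (hψ : ψ ≠ 1) {u : Vc l F} {M : Subgroup (Sp l F)} {g : Sp l F} (hg : g ∈ KK u M)
    {y : Vc l F} (hy : y ∈ Dh ψ u M) : ac g y ∈ Dh ψ u M := by
  obtain ⟨hgu, e, he, hM⟩ := hg
  have hu' : ac (g * e) u = u := by rw [ac_mul, QQ_le_fixs u he, hgu]
  obtain ⟨c, hc⟩ := QQ_perp ((QQ u).inv_mem he) (Dh_perp hψ hy)
  have h1 : ac g y = ac (g * e) (ac e⁻¹ y) := by rw [ac_mul, ac_ac_inv]
  rw [h1]
  apply Dh_inv hM hu'
  rw [hc]
  exact (Dh ψ u M).add_mem hy (smul_mem_Dh u M c)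

theorem Bh_KK {u : Vc l F} {M : Subgroup (Sp l F)} {g : Sp l F} (hg : g ∈ KK u M)
    {y : Vc l F} (hy : y ∈ Bh u M) : ac g y ∈ Bh u M := by
  obtain ⟨hgu, e, he, hM⟩ := hg
  have hu' : ac (g * e) u = u := by rw [ac_mul, QQ_le_fixs u he, hgu]
  obtain ⟨c, hc⟩ := QQ_perp ((QQ u).inv_mem he) (sf_comm0.1 hy.1)
  have h1 : ac g y = ac (g * e) (ac e⁻¹ y) := by rw [ac_mul, ac_ac_inv]
  rw [h1]
  apply Bh_inv hM hu'
  rw [hc]
  exact (Bh u M).add_mem hy (smul_mem_Bh u M c)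

/-! ### Orbit counts -/

theorem card_diff {u : Vc l F} (hu : u ≠ 0) (D : AddSubgroup (Vc l F)) (hD : ∀ c : F, c • u ∈ D) :
    Nat.card {v : Vc l F // v ∈ D ∧ ∀ c : F, v ≠ c • u} + Fintype.card F = Nat.card D := by
  classical
  have e : Nat.card ({v : Vc l F // v ∈ D ∧ ∀ c : F, v ≠ c • u} ⊕ F) = Nat.card D := by
    apply Nat.card_congr
    refine Equiv.ofBijective (Sum.elim (fun v => ⟨v.1, v.2.1⟩) (fun c => ⟨c • u, hD c⟩)) ⟨?_, ?_⟩
    · rintro (⟨v, hv, hv'⟩ | c) (⟨w, hw, hw'⟩ | d) h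
      · have h1 : v = w := congrArg Subtype.val h
        subst h1; rfl
      · exact absurd (congrArg Subtype.val h) (hv' d)
      · exact absurd (congrArg Subtype.val h).symm (hw' c)
      · have h1 : c • u = d • u := congrArg Subtype.val h
        rw [smul_left_injective F hu h1]
    · rintro ⟨v, hv⟩
      by_cases h : ∀ c : F, v ≠ c • u
      · exact ⟨Sum.inl ⟨v, hv, h⟩, rfl⟩
      · push Not at h
        obtain ⟨c, rfl⟩ := h
        exact ⟨Sum.inr c, rfl⟩
  rw [Nat.card_sum, Nat.card_eq_fintype_card (α := F)] at e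
  exact e

theorem orbit_fixs {u a : Vc l F} (hu : u ≠ 0) (hau : sf a u = 0) (ha : ∀ c : F, a ≠ c • u) :
    (fixs a).relIndex (fixs u) = Nat.card {v : Vc l F // v ∈ (pu u).toAddSubgroup ∧
      ∀ c : F, v ≠ c • u} := by
  rw [relIndex_fixs]
  refine Nat.card_congr (Equiv.subtypeEquivRight fun v => ?_)
  rw [Submodule.mem_toAddSubgroup, mem_pu]
  constructor
  · rintro ⟨g, hg, rfl⟩
    refine ⟨?_, fun c hc => ?_⟩
    · have := sf_ac g a u
      rwa [(hg : ac g u = u), hau] at this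
    · apply ha c
      rw [← ac_inv_ac g a, hc, ac_smul, ac_inv_fix hg]
  · rintro ⟨h1, h2⟩
    obtain ⟨z, hz, hz'⟩ := exists_perp hu ha
    obtain ⟨z', hz1, hz1'⟩ := exists_perp hu h2
    obtain ⟨g, hg, hg'⟩ := exists_move2 (W := pu u) (x := a) (x' := v) hau h1 ⟨z, hz, hz'⟩
      ⟨z', hz1, hz1'⟩
    exact ⟨g, hg' u (fun w hw => sf_comm0.1 hw), hg⟩

theorem orbit_KK (hψ : ψ ≠ 1) {u a : Vc l F} {M : Subgroup (Sp l F)}
    (haD : a ∈ Dh ψ u M) (ha : ∀ c : F, a ≠ c • u) :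
    (fixs a).relIndex (KK u M) ≤ Nat.card {v : Vc l F // v ∈ Dh ψ u M ∧ ∀ c : F, v ≠ c • u} := by
  rw [relIndex_fixs]
  refine Nat.card_le_card_of_injective (fun v => ⟨v.1, ?_, ?_⟩) ?_
  · obtain ⟨g, hg, h⟩ := v.2
    rw [← h]
    exact Dh_KK hψ hg haD
  · intro c hc
    obtain ⟨g, hg, h⟩ := v.2
    apply ha c
    rw [← ac_inv_ac g a, h, hc, ac_smul, ac_inv_fix hg.1]
  · intro v w h
    exact Subtype.ext (congrArg (fun z => z.1) h)

/-- The basic orbit inequality. -/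
theorem orbit_ineq (hψ : ψ ≠ 1) {u a : Vc l F} (hu : u ≠ 0) {M : Subgroup (Sp l F)}
    (haD : a ∈ Dh ψ u M) (ha : ∀ c : F, a ≠ c • u) :
    (KK u M).relIndex (fixs u ⊓ fixs a) * (Nat.card (pu u).toAddSubgroup - Fintype.card F) ≤
      (KK u M).relIndex (fixs u) * (Nat.card (Dh ψ u M) - Fintype.card F) := by
  have h1 := two_chains (A := fixs a) (KK_le_fixs u M)
  have h2 := orbit_fixs hu (Dh_perp hψ haD) ha
  have h3 := orbit_KK hψ haD ha
  have h4 := card_diff hu (pu u).toAddSubgroup (fun c => by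
    rw [Submodule.mem_toAddSubgroup, mem_pu, sf_smul_left, sf_self, mul_zero])
  have h5 := card_diff hu (Dh ψ u M) (smul_mem_Dh u M)
  rw [← h4, ← h5, Nat.add_sub_cancel, Nat.add_sub_cancel, ← h2, mul_comm, ← h1]
  exact Nat.mul_le_mul_left _ h3

/-- The multipliers of `M` at `u`. -/
def Lam (u : Vc l F) (M : Subgroup (Sp l F)) : Type _ :=
  {c : F // c ≠ 0 ∧ ∃ g ∈ M, ac g u = c • u}

instance (u : Vc l F) (M : Subgroup (Sp l F)) : Finite (Lam u M) := by
  unfold Lam; infer_instance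

theorem rel_Lam {u : Vc l F} (hu : u ≠ 0) (M : Subgroup (Sp l F)) :
    (fixs u).relIndex (M ⊓ PP u) = Nat.card (Lam u M) := by
  rw [relIndex_fixs]
  apply Nat.card_congr
  symm
  refine Equiv.ofBijective (fun c => ⟨c.1 • u, ?_⟩) ⟨?_, ?_⟩
  · obtain ⟨hc, g, hg, h⟩ := c.2
    exact ⟨g, ⟨hg, c.1, hc, h⟩, h⟩
  · intro c d h
    exact Subtype.ext (smul_left_injective F hu (congrArg Subtype.val h))
  · rintro ⟨v, g, ⟨hg, c, hc, h⟩, h'⟩
    exact ⟨⟨c, hc, g, hg, h⟩, Subtype.ext (h.symm.trans h')⟩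

theorem card_Lam_top {u : Vc l F} (hu : u ≠ 0) : Nat.card (Lam u (⊤ : Subgroup (Sp l F))) =
    Fintype.card F - 1 := by
  classical
  have e : Nat.card (Lam u (⊤ : Subgroup (Sp l F))) = Nat.card {c : F // c ≠ 0} := by
    refine Nat.card_congr (Equiv.subtypeEquivRight fun c => ?_)
    constructor
    · exact fun h => h.1
    · intro h
      obtain ⟨g, hg⟩ := exists_ac hu (smul_ne_zero h hu)
      exact ⟨h, g, Subgroup.mem_top g, hg⟩
  rw [e, Nat.card_eq_fintype_card, Fintype.card_subtype_compl]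
  simp

theorem rel_PP {u : Vc l F} (hu : u ≠ 0) (M : Subgroup (Sp l F)) :
    M.relIndex (PP u) * Nat.card (Lam u M) = (Fintype.card F - 1) * M.relIndex (fixs u) := by
  have h1 := two_chains' M (fixs_le_PP u)
  have h2 := rel_Lam hu M
  have h3 := rel_Lam hu ⊤
  rw [top_inf_eq, card_Lam_top hu] at h3
  rw [← h2, h1, h3]

theorem main_ineq (hψ : ψ ≠ 1) {u : Vc l F} (hu : u ≠ 0) (M : Subgroup (Sp l F)) :
    (Fintype.card F - 1) * (Nat.card (Dh ψ u M) * (KK u M).relIndex (fixs u)) ≤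
      M.relIndex (PP u) * (Nat.card (Lam u M) * Nat.card (Yh u M)) := by
  have h1 := rel_PP hu M
  have h2 := index_ge_fix u M
  have h3 := rel_QQ hψ hu M
  calc (Fintype.card F - 1) * (Nat.card (Dh ψ u M) * (KK u M).relIndex (fixs u))
      = (Fintype.card F - 1) * (M.relIndex (QQ u) * (KK u M).relIndex (fixs u)) *
          Nat.card (Yh u M) := by rw [← h3]; ring
    _ ≤ (Fintype.card F - 1) * M.relIndex (fixs u) * Nat.card (Yh u M) :=
        Nat.mul_le_mul_right _ (Nat.mul_le_mul_left _ h2)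
    _ = M.relIndex (PP u) * (Nat.card (Lam u M) * Nat.card (Yh u M)) := by rw [← h1]; ring

end Cfsg.Agent.MinS
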