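import Cfsg.Agent.MinS.T3c
import Cfsg.Agent.MinS.Even2

/-!
# Minimal index of the symplectic groups
-/

set_option autoImplicit false
set_option linter.unusedSectionVars false

namespace Cfsg.Agent.MinS

open Matrix Cfsg.Agent.ClassSp Cfsg.Agent.LSSp Cfsg.Agent.Mdx

variable {l : Type*} [Fintype l] [DecidableEq l] {F : Type*} [Field F] [Fintype F]
variable {M : Subgroup (Sp l F)}

theorem exists_not_Cn (hM : M ≠ ⊤) : ∃ u : Vc l F, ¬ Cn M u := by
  by_contra hcon
  push Not at hcon
  apply hM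
  rw [eq_top_iff, ← tvGroup_eq_top l]
  unfold tvGroup
  rw [Subgroup.closure_le]
  rintro _ ⟨w, c, rfl⟩
  exact hcon w c

theorem main_index (hq : 3 ≤ Fintype.card F) (hm : 2 ≤ Fintype.card l)
    (hexc : ¬ (Fintype.card l = 2 ∧ Fintype.card F = 3)) (hM : M ≠ ⊤) :
    Nat.card (Vc l F) ≤ M.index * (Fintype.card F - 1) + 1 := by
  by_contra hcon
  push Not at hcon
  obtain ⟨ψ, hψ⟩ := exists_addChar (F := F)
  -- the index bound
  have hk : M.index * (Fintype.card F - 1) + Fintype.card F ≤ Nat.card (Vc l F) := by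
    have hne : Nonempty l := by rw [← Fintype.card_pos_iff]; omega
    obtain ⟨u, hu⟩ : ∃ u : Vc l F, u ≠ 0 := exists_ne 0
    have h1 := index_PP (F := F) hu
    have h2 : M.index < (PP u : Subgroup (Sp l F)).index := by
      by_contra h
      push Not at h
      have := Nat.mul_le_mul_right (Fintype.card F - 1) h
      omega
    have h3 : (M.index + 1) * (Fintype.card F - 1) ≤
        (PP u : Subgroup (Sp l F)).index * (Fintype.card F - 1) := Nat.mul_le_mul_right _ h2
    rw [add_mul, one_mul] at h3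
    omega
  have hsm : ∀ v : Vc l F, Small v M := fun v => le_trans (Nat.add_le_add_right
    (Nat.mul_le_mul_right _ (rel_le_index M (PP v))) _) hk
  have h0 : ∀ v : Vc l F, ¬ Cn M v → v ≠ 0 := by
    rintro v hv rfl
    exact hv Cn_zero
  have hYt : ∀ v : Vc l F, ¬ Cn M v → Yh v M ≠ ⊤ := fun v hv h => hv (Cn_iff.2 h)
  have hSA : ∀ v : Vc l F, v ≠ 0 → ¬ Cn M v → SA ψ v M := fun v hv hvC a haD ha =>
    stepA hψ hq hm hv (hYt v hvC) (hsm v) haD ha
  -- no points of the third type
  have hno3 : ∀ v : Vc l F, ¬ Cn M v → OutI M v ∨ (OutII M v ∧ (2 : F) = 0) := by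
    intro v hv
    have hA := hSA v (h0 v hv) hv
    rcases trichotomy hψ hA (h0 v hv) with hI | hII | ⟨a, hIII⟩
    · exact Or.inl (outI_of hψ hq hA hm hexc (h0 v hv) (hYt v hv) (hsm v) hI)
    · exact Or.inr ⟨outII_of hψ hII, TII_even hψ hm (h0 v hv) (hYt v hv) hII⟩
    · exfalso
      rcases Nat.lt_or_ge 2 (Fintype.card l) with h3 | h3
      · exact TIII_rank hψ hq hA h3 (hYt v hv) hIII
      · have hm2 : Fintype.card l = 2 := by omega
        have hq4 : 4 ≤ Fintype.card F := by
          by_contra h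
          exact hexc ⟨hm2, by omega⟩
        exact III_absurd ⟨hψ, hq, hm2, h0 v hv, hA, hYt v hv, hsm v, hIII⟩ hq4 hk hSA hv
  have hne := exists_not_Cn hM
  by_cases hI : ∃ u : Vc l F, ¬ Cn M u ∧ OutI M u
  · obtain ⟨u, hu, hIu⟩ := hI
    have hall : ∀ v : Vc l F, ¬ Cn M v → OutI M v := by
      intro v hv
      rcases hno3 v hv with h | ⟨h, -⟩
      · exact h
      · exact absurd (not_both hq hm hu hIu hv h) not_false
    obtain ⟨x, hx, hle⟩ := fixes_point hm hall hne
    have h1 := Subgroup.index_antitone hle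
    have h2 := index_PP (F := F) hx
    have h3 := Nat.mul_le_mul_right (Fintype.card F - 1) h1
    omega
  · push Not at hI
    obtain ⟨u, hu⟩ := hne
    have h2 : (2 : F) = 0 := by
      rcases hno3 u hu with h | ⟨-, h⟩
      · exact absurd h (hI u hu)
      · exact h
    exact II_absurd hψ h2 hq hm (fun v hv => (hno3 v hv).resolve_left (hI v hv) |>.1) ⟨u, hu⟩

theorem center_le_PP (u : Vc l F) : Subgroup.center (Sp l F) ≤ PP u := by
  intro z hz
  obtain ⟨a, ha, h⟩ := mem_center_iff.1 hz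
  refine ⟨a, ?_, h u⟩
  rintro rfl
  norm_num at ha

end Cfsg.Agent.MinS
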