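import Cfsg.Agent.MinS.Cls

/-!
# Points of the first type
-/

set_option autoImplicit false
set_option linter.unusedSectionVars false

namespace Cfsg.Agent.MinS

open Matrix Cfsg.Agent.ClassSp Cfsg.Agent.LSSp Cfsg.Agent.Mdx

variable {l : Type*} [Fintype l] [DecidableEq l] {F : Type*} [Field F] [Fintype F]
variable {ψ : AddChar F ℂ} {u : Vc l F} {M : Subgroup (Sp l F)}

theorem TI_KK (hψ : ψ ≠ 1) (hA : SA ψ u M) (hm : 2 ≤ Fintype.card l) (hu : u ≠ 0)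
    (hI : TI ψ u M) {g : Sp l F} (hg : ac g u = u) : g ∈ KK u M := by
  have htv : ∀ a, sf a u = 0 → (∀ c : F, a ≠ c • u) → ∀ s, tv a s ∈ KK u M := fun a h1 h2 s =>
    hA a (hI a h1) h2 _ (ac_tv_fix (sf_comm0.1 h1) _) (ac_tv_fix (sf_self a) _)
  obtain ⟨a, ha, hac⟩ := exists_side hm hu
  have ha' : sf (ac g a) u = 0 := by
    have := sf_ac g a u
    rwa [hg, ha] at this
  have hac' : ∀ c : F, ac g a ≠ c • u := by
    intro c hc
    apply hac c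
    rw [← ac_inv_ac g a, hc, ac_smul, ac_inv_fix hg]
  obtain ⟨z1, hz1, hz1'⟩ := exists_perp hu hac
  obtain ⟨z2, hz2, hz2'⟩ := exists_perp hu hac'
  obtain ⟨z, hz, h1, h2⟩ := exists_both (W := pu u) ⟨z1, hz1, hz1'⟩ ⟨z2, hz2, hz2'⟩
  have hzu : sf z u = 0 := hz
  obtain ⟨s, hs⟩ := exists_move h1
  obtain ⟨s', hs'⟩ := exists_move (sf_ne_comm.1 h2)
  have k1 := htv (z - a) (by rw [sf_sub_left, hzu, ha, sub_zero]) (ne_smul_of_sf ha (by
    rw [sf_sub_right, sf_self, sub_zero]; exact h1)) s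
  have k2 := htv (ac g a - z) (by rw [sf_sub_left, hzu, ha', sub_zero]) (ne_smul_of_sf hzu (by
    rw [sf_sub_right, sf_self, sub_zero]; exact sf_ne_comm.1 h2)) s'
  have k3 := (KK u M).mul_mem k2 k1
  set h := tv (ac g a - z) s' * tv (z - a) s with hh
  have hha : ac h a = ac g a := by rw [hh, ac_mul, hs, hs']
  have k4 : h⁻¹ * g ∈ KK u M := by
    refine hA a (hI a ha) hac _ ?_ ?_
    · rw [ac_mul, hg, ac_inv_fix k3.1]
    · rw [ac_mul, ← hha, ac_inv_ac]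
  have := (KK u M).mul_mem k3 k4
  rwa [mul_inv_cancel_left] at this

theorem lam_num {q P k y r : ℤ} (hq : 3 ≤ q) (hP : 1 ≤ P) (hk0 : 0 ≤ k) (hr : 1 ≤ r)
    (h1 : (q - 1) * (P * r) ≤ k * y) (hk : k * (q - 1) + q ≤ q * P) (hy : 2 * y ≤ q)
    (hy0 : 0 ≤ y) : False := by
  have h2 : (q - 1) * ((q - 1) * P) ≤ (q * P - q) * y := by
    have h3 : (q - 1) * ((q - 1) * P) ≤ (q - 1) * ((q - 1) * (P * r)) :=
      mul_le_mul_of_nonneg_left (mul_le_mul_of_nonneg_left (by nlinarith) (by linarith)) (by linarith)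
    have h4 : (q - 1) * ((q - 1) * (P * r)) ≤ (q - 1) * (k * y) :=
      mul_le_mul_of_nonneg_left h1 (by linarith)
    have h5 : (q - 1) * (k * y) ≤ (q * P - q) * y := by nlinarith
    linarith
  rcases (show q = 3 ∨ 4 ≤ q by omega) with rfl | h4
  · have : y ≤ 1 := by omega
    nlinarith
  · have h3 : 2 * ((q - 1) * ((q - 1) * P)) ≤ (q * P - q) * q := by nlinarith [mul_nonneg (by nlinarith : (0:ℤ) ≤ q * P - q) (by linarith : (0:ℤ) ≤ q - 2 * y)]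
    nlinarith [mul_pos (by linarith : (0:ℤ) < P) (by linarith : (0:ℤ) < q), sq_nonneg (q - 4)]

theorem exists_lam (hψ : ψ ≠ 1) (hq : 3 ≤ Fintype.card F) (hu : u ≠ 0) (hY : Yh u M ≠ ⊤)
    (hk : Small u M) (hI : TI ψ u M) : ∃ c : F, c ≠ 0 ∧ c ≠ 1 ∧ ∃ g ∈ M, ac g u = c • u := by
  classical
  by_contra hcon
  push Not at hcon
  have hL : Nat.card (Lam u M) = 1 := by
    rw [Nat.card_eq_one_iff_unique]
    refine ⟨⟨fun a b => ?_⟩, ⟨⟨1, one_ne_zero, 1, M.one_mem, by rw [ac_one, one_smul]⟩⟩⟩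
    have key : ∀ a : Lam u M, a.1 = 1 := by
      intro a
      by_contra h
      obtain ⟨g, hg, hga⟩ := a.2.2
      exact hcon a.1 a.2.1 h g hg hga
    exact Subtype.ext ((key a).trans (key b).symm)
  have hD : Nat.card (Dh ψ u M) = Nat.card (pu u).toAddSubgroup := by
    have : Dh ψ u M = (pu u).toAddSubgroup := by
      ext x
      exact ⟨fun h => Dh_perp hψ h, fun h => hI x h⟩
    rw [this]
  have h1 := main_ineq hψ hu M
  rw [hD, hL, one_mul] at h1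
  have h2 := Lm_dual hY
  have h3 : 1 ≤ Nat.card (Lm (Yh u M)) := by
    have := card_Lam_le u M
    omega
  have h4 : 2 * Nat.card (Yh u M) ≤ Fintype.card F := by
    refine le_trans (Nat.mul_le_mul_right _ ?_) h2
    omega
  have hk' := hk
  unfold Small at hk'
  rw [← card_pu hu] at hk'
  have hr : 1 ≤ (KK u M).relIndex (fixs u) := Nat.one_le_iff_ne_zero.2 (rel_ne_zero _ _)
  have hP : 1 ≤ Nat.card (pu u).toAddSubgroup := Nat.card_pos
  have hq1 : 1 ≤ Fintype.card F := by omega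
  zify [hq1] at h1 hk' h4 hr hP hq
  exact lam_num hq hP (Int.natCast_nonneg _) hr h1 hk' h4 (Int.natCast_nonneg _)

/-- The torus element attached to a hyperbolic pair. -/
noncomputable def tor (u v : Vc l F) (h : sf u v = 1) (c : F) (hc : c ≠ 0) : Sp l F :=
  ofLin
    { toFun := fun x => x + ((c - 1) * sf x v) • u + ((1 - c⁻¹) * sf x u) • v
      map_add' := by
        intro x y
        rw [sf_add_left, sf_add_left]; module
      map_smul' := by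
        intro a x
        rw [sf_smul_left, sf_smul_left, RingHom.id_apply]; module }
    (by
      intro x y
      have hvu : sf v u = -1 := by rw [sf_swap, h]
      simp only [LinearMap.coe_mk, AddHom.coe_mk, sf_add_left, sf_add_right, sf_smul_left,
        sf_smul_right, sf_self, h, hvu, sf_swap u y, sf_swap v y]
      field_simp
      ring)

theorem ac_tor {u v : Vc l F} (h : sf u v = 1) {c : F} (hc : c ≠ 0) (x : Vc l F) :
    ac (tor u v h c hc) x = x + ((c - 1) * sf x v) • u + ((1 - c⁻¹) * sf x u) • v :=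
  ofLin_mulVec _ _ x

theorem QQ_smul_le (u : Vc l F) {c : F} (hc : c ≠ 0) : QQ (c • u) ≤ QQ u := by
  rintro _ ⟨w, s, h, rfl⟩
  have h' : sf u w = 0 := by
    rw [sf_smul_left] at h
    exact (mul_eq_zero.1 h).resolve_left hc
  exact ⟨_, _, by rw [sf_smul_right, h', mul_zero], qe_smul_left h' c s⟩

theorem exists_tau (hψ : ψ ≠ 1) (hq : 3 ≤ Fintype.card F) (hA : SA ψ u M)
    (hm : 2 ≤ Fintype.card l) (hu : u ≠ 0) (hY : Yh u M ≠ ⊤)
    (hk : Small u M) (hI : TI ψ u M) : ∃ c : F, c ≠ 0 ∧ c ≠ 1 ∧ ∃ g ∈ M, ac g u = c • u ∧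
      ∀ x, sf x u = 0 → ∃ d : F, ac g x = x + d • u := by
  obtain ⟨c, hc, hc1, g, hg, hgu⟩ := exists_lam hψ hq hu hY hk hI
  obtain ⟨v, hv⟩ := exists_dual hu
  set T := tor u v hv c hc with hT
  have hTu : ac T u = c • u := by
    rw [hT, ac_tor, hv, sf_self]; module
  have hTi : ac T⁻¹ (c • u) = u := by rw [← hTu, ac_inv_ac]
  obtain ⟨hfix, e, he, hM⟩ := TI_KK hψ hA hm hu hI (g := T⁻¹ * g) (by rw [ac_mul, hgu, hTi])
  refine ⟨c, hc, hc1, g * (T⁻¹ * g * e)⁻¹, M.mul_mem hg (M.inv_mem hM), ?_, ?_⟩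
  · have h1 : ac (T⁻¹ * g * e) u = u := by rw [ac_mul, QQ_le_fixs u he, hfix]
    rw [ac_mul, ac_inv_fix h1, hgu]
  · intro x hx
    have e1 : g * (T⁻¹ * g * e)⁻¹ = g * e⁻¹ * g⁻¹ * T := by group
    have h1 : g * e⁻¹ * g⁻¹ ∈ QQ u := by
      have := QQ_conj (g := g) ((QQ u).inv_mem he)
      rw [hgu] at this
      exact QQ_smul_le u hc this
    have hTx : ac T x = x + ((c - 1) * sf x v) • u := by
      rw [hT, ac_tor, hx]; module
    obtain ⟨d, hd⟩ := QQ_perp h1 hx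
    refine ⟨d + (c - 1) * sf x v, ?_⟩
    rw [e1, ac_mul, hTx, ac_add, ac_smul, QQ_le_fixs u h1, hd]
    module

/-- Fixed vectors of `τ` orthogonal to `u`. -/
def Wt (u : Vc l F) (τ : Sp l F) : Submodule F (Vc l F) where
  carrier := {x | sf x u = 0 ∧ ac τ x = x}
  add_mem' := by
    rintro a b ⟨h1, h2⟩ ⟨h3, h4⟩
    exact ⟨by rw [sf_add_left, h1, h3, add_zero], by rw [ac_add, h2, h4]⟩
  zero_mem' := ⟨sf_zero_left u, ac_zero τ⟩
  smul_mem' := by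
    rintro c x ⟨h1, h2⟩
    exact ⟨by rw [sf_smul_left, h1, mul_zero], by rw [ac_smul, h2]⟩

theorem mem_Wt {τ : Sp l F} {x : Vc l F} : x ∈ Wt u τ ↔ sf x u = 0 ∧ ac τ x = x := Iff.rfl

variable {τ : Sp l F} {c : F}

theorem Wt_proj (hc1 : c ≠ 1) (hτu : ac τ u = c • u)
    (hτ : ∀ x, sf x u = 0 → ∃ d : F, ac τ x = x + d • u) {x : Vc l F} (hx : sf x u = 0) :
    ∃ β : F, x - β • u ∈ Wt u τ := by
  obtain ⟨d, hd⟩ := hτ x hx
  have h1 : c - 1 ≠ 0 := sub_ne_zero.2 hc1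
  refine ⟨d / (c - 1), by rw [sf_sub_left, sf_smul_left, sf_self, hx]; ring, ?_⟩
  rw [ac_sub, ac_smul, hτu, hd]
  have e : d = d / (c - 1) * (c - 1) := by rw [div_mul_cancel₀ _ h1]
  conv_lhs => rw [show (x + d • u : Vc l F) = x + (d / (c - 1) * (c - 1)) • u by rw [← e]]
  module

theorem Wt_smul (hu : u ≠ 0) (hc1 : c ≠ 1) (hτu : ac τ u = c • u) {d : F} (h : d • u ∈ Wt u τ) :
    d = 0 := by
  have h1 := h.2
  rw [ac_smul, hτu, smul_smul] at h1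
  have h2 := smul_left_injective F hu h1
  by_contra hd
  apply hc1
  exact mul_left_cancel₀ hd (h2.trans (mul_one d).symm)

theorem Wt_inv (hψ : ψ ≠ 1) (hu : u ≠ 0) (hI : TI ψ u M) (hc : c ≠ 0) (hτM : τ ∈ M)
    (hτu : ac τ u = c • u) (hτ : ∀ x, sf x u = 0 → ∃ d : F, ac τ x = x + d • u) {h : Sp l F}
    (hh : h ∈ M) (hhu : ac h u = u) {x : Vc l F} (hx : x ∈ Wt u τ) : ac h x ∈ Wt u τ := by
  have hinv : ∀ d : F, ac τ⁻¹ (d • u) = (c⁻¹ * d) • u := by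
    intro d
    have : d • u = ac τ ((c⁻¹ * d) • u) := by
      rw [ac_smul, hτu, smul_smul]
      congr 1
      field_simp
    rw [this, ac_inv_ac]
  have hperp : ∀ y, sf y u = 0 → sf (ac h y) u = 0 := by
    intro y hy
    have := sf_ac h y u
    rwa [hhu, hy] at this
  have hk : τ⁻¹ * h⁻¹ * τ * h ∈ QQ u := by
    apply mem_QQ_of hu
    · rw [ac_mul, ac_mul, ac_mul, hhu, hτu, ac_smul, ac_inv_fix hhu, hinv, inv_mul_cancel₀ hc,
        one_smul]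
    · intro y hy
      obtain ⟨d, hd⟩ := hτ _ (hperp y hy)
      obtain ⟨d', hd'⟩ := hτ _ hy
      refine ⟨c⁻¹ * d - c⁻¹ * d', ?_⟩
      have h1 : ac τ⁻¹ y = y - (c⁻¹ * d') • u := by
        have : y = ac τ (y - (c⁻¹ * d') • u) := by
          rw [ac_sub, ac_smul, hτu, hd', smul_smul]
          have : c⁻¹ * d' * c = d' := by field_simp
          rw [this]; module
        conv_lhs => rw [this]
        rw [ac_inv_ac]
      rw [ac_mul, ac_mul, ac_mul, hd, ac_add, ac_smul, ac_inv_ac, ac_inv_fix hhu, ac_add, hinv, h1]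
      module
  have hkM : τ⁻¹ * h⁻¹ * τ * h ∈ M :=
    M.mul_mem (M.mul_mem (M.mul_mem (M.inv_mem hτM) (M.inv_mem hh)) hτM) hh
  have hkx : ac (τ⁻¹ * h⁻¹ * τ * h) x = x := by
    obtain ⟨w, s, hw, hk'⟩ := hk
    rw [hk'] at hkM
    obtain ⟨d, rfl⟩ := TI_Bh hψ hu hI ⟨hw, s, hkM⟩
    rw [hk', ac_qe_perp hw s hx.1, sf_smul_right, hx.1]
    module
  refine ⟨hperp x hx.1, ?_⟩
  have h1 : ac τ (ac h x) = ac h (ac τ (ac (τ⁻¹ * h⁻¹ * τ * h) x)) := by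
    rw [ac_mul, ac_mul, ac_mul, ac_ac_inv, ac_ac_inv]
  rw [h1, hkx, hx.2]

theorem exists_fix (hψ : ψ ≠ 1) (hA : SA ψ u M) (hm : 2 ≤ Fintype.card l) (hu : u ≠ 0)
    (hI : TI ψ u M) (hc : c ≠ 0) (hc1 : c ≠ 1) (hτM : τ ∈ M)
    (hτu : ac τ u = c • u) (hτ : ∀ x, sf x u = 0 → ∃ d : F, ac τ x = x + d • u) {σ : Sp l F}
    (hσu : ac σ u = u) (hσ : ∀ x ∈ Wt u τ, ac σ x ∈ Wt u τ) : ∃ z : F, σ * tv u z ∈ M := by
  obtain ⟨-, e, ⟨w, s, hw, rfl⟩, hM⟩ := TI_KK hψ hA hm hu hI hσu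
  have hfix : ac (σ * qe u w s) u = u := by rw [ac_mul, ac_qe_self hw, hσu]
  have h1 : ∀ x ∈ Wt u τ, sf x w = 0 := by
    intro x hx
    have h2 := Wt_inv hψ hu hI hc hτM hτu hτ hM hfix hx
    rw [ac_mul, ac_qe_perp hw s hx.1, ac_add, ac_smul, hσu] at h2
    have h3 := (Wt u τ).sub_mem h2 (hσ x hx)
    rw [add_sub_cancel_left] at h3
    exact Wt_smul hu hc1 hτu h3
  obtain ⟨d, rfl⟩ : ∃ d : F, w = d • u := by
    by_contra hcon
    push Not at hcon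
    obtain ⟨z, hz, hz'⟩ := exists_perp hu hcon
    obtain ⟨β, hβ⟩ := Wt_proj hc1 hτu hτ hz
    apply hz'
    rw [sf_comm0]
    have h2 := h1 _ hβ
    rw [sf_sub_left, sf_smul_left, hw, mul_zero, sub_zero] at h2
    exact h2
  rw [qe_smul_self] at hM
  exact ⟨_, hM⟩

theorem comm_mem {σ₁ σ₂ : Sp l F} (h1 : ac σ₁ u = u) (h2 : ac σ₂ u = u) {z₁ z₂ : F}
    (hz1 : σ₁ * tv u z₁ ∈ M) (hz2 : σ₂ * tv u z₂ ∈ M) : σ₁ * σ₂ * σ₁⁻¹ * σ₂⁻¹ ∈ M := by
  have c1 : ∀ z : F, tv u z * σ₂ = σ₂ * tv u z := by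
    intro z
    have := conj_tv σ₂ u z
    rw [h2, mul_inv_eq_iff_eq_mul] at this
    exact this.symm
  have c2 : ∀ z : F, tv u z * σ₁⁻¹ = σ₁⁻¹ * tv u z := by
    intro z
    have := conj_tv σ₁⁻¹ u z
    rw [ac_inv_fix h1, mul_inv_eq_iff_eq_mul] at this
    exact this.symm
  have h3 := M.mul_mem (M.mul_mem hz1 hz2) (M.mul_mem (M.inv_mem hz1) (M.inv_mem hz2))
  have e : σ₁ * tv u z₁ * (σ₂ * tv u z₂) * ((σ₁ * tv u z₁)⁻¹ * (σ₂ * tv u z₂)⁻¹) =
      σ₁ * σ₂ * σ₁⁻¹ * σ₂⁻¹ := by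
    calc σ₁ * tv u z₁ * (σ₂ * tv u z₂) * ((σ₁ * tv u z₁)⁻¹ * (σ₂ * tv u z₂)⁻¹)
        = σ₁ * (tv u z₁ * σ₂) * tv u z₂ * (tv u z₁)⁻¹ * σ₁⁻¹ * (tv u z₂)⁻¹ * σ₂⁻¹ := by group
      _ = σ₁ * (σ₂ * tv u z₁) * tv u z₂ * tv u (-z₁) * σ₁⁻¹ * tv u (-z₂) * σ₂⁻¹ := by
          rw [c1, ← tv_neg, ← tv_neg]
      _ = σ₁ * σ₂ * (tv u z₁ * tv u z₂ * tv u (-z₁)) * σ₁⁻¹ * tv u (-z₂) * σ₂⁻¹ := by group
      _ = σ₁ * σ₂ * tv u z₂ * σ₁⁻¹ * tv u (-z₂) * σ₂⁻¹ := by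
          rw [tv_mul, tv_mul]
          congr 6
          ring
      _ = σ₁ * σ₂ * (tv u z₂ * σ₁⁻¹) * tv u (-z₂) * σ₂⁻¹ := by group
      _ = σ₁ * σ₂ * (σ₁⁻¹ * tv u z₂) * tv u (-z₂) * σ₂⁻¹ := by rw [c2]
      _ = σ₁ * σ₂ * σ₁⁻¹ * (tv u z₂ * tv u (-z₂)) * σ₂⁻¹ := by group
      _ = σ₁ * σ₂ * σ₁⁻¹ * σ₂⁻¹ := by rw [tv_mul, add_neg_cancel, tv_zero, mul_one]
  rwa [e] at h3

theorem two_ne_zero_of_three (h : Fintype.card F = 3) : (2 : F) ≠ 0 := by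
  intro h2
  have h3 : ((3 : ℕ) : F) = 0 := by rw [← h]; exact FiniteField.cast_card_eq_zero F
  have : (1 : F) = 0 := by
    push_cast at h3
    linear_combination h3 - h2
  exact one_ne_zero this

/-- Transvections with centre in `W`. -/
theorem tv_mem_of_Wt (hψ : ψ ≠ 1) (hq : 3 ≤ Fintype.card F) (hA : SA ψ u M)
    (hm : 2 ≤ Fintype.card l)
    (hexc : ¬ (Fintype.card l = 2 ∧ Fintype.card F = 3)) (hu : u ≠ 0)
    (hI : TI ψ u M) (hc : c ≠ 0) (hc1 : c ≠ 1) (hτM : τ ∈ M)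
    (hτu : ac τ u = c • u) (hτ : ∀ x, sf x u = 0 → ∃ d : F, ac τ x = x + d • u) {w : Vc l F}
    (hw : w ∈ Wt u τ) (s : F) : tv w s ∈ M := by
  by_cases hw0 : w = 0
  · have : tv w s = (1 : Sp l F) := by
      apply ac_ext; intro v
      rw [ac_tv, ac_one, hw0]; module
    rw [this]; exact M.one_mem
  have hwu := hw.1
  have huw := sf_comm0.1 hwu
  have hfix : ∀ {σ : Sp l F}, ac σ u = u → (∀ x ∈ Wt u τ, ac σ x ∈ Wt u τ) →
      ∃ z : F, σ * tv u z ∈ M := fun h1 h2 => exists_fix hψ hA hm hu hI hc hc1 hτM hτu hτ h1 h2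
  by_cases h4 : 4 ≤ Fintype.card F
  · obtain ⟨μ, hμ0, hμ⟩ := exists_sq_ne_one h4
    have hwc : ∀ c : F, w ≠ c • u := by
      rintro d rfl
      apply hw0
      rw [Wt_smul hu hc1 hτu hw, zero_smul]
    obtain ⟨z, hz, hz'⟩ := exists_perp hu hwc
    obtain ⟨β, hβ⟩ := Wt_proj hc1 hτu hτ hz
    set w' := (sf w z)⁻¹ • (z - β • u) with hw'
    have hw'W : w' ∈ Wt u τ := (Wt u τ).smul_mem _ hβ
    have hww' : sf w w' = 1 := by
      rw [hw', sf_smul_right, sf_sub_right, sf_smul_right, hwu, mul_zero, sub_zero,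
        inv_mul_cancel₀ hz']
    have huw' := sf_comm0.1 hw'W.1
    have hT : ac (tor w w' hww' μ hμ0) u = u := by
      rw [ac_tor, huw, huw']; module
    obtain ⟨z1, hz1⟩ := hfix hT (by
      intro x hx
      rw [ac_tor]
      exact (Wt u τ).add_mem ((Wt u τ).add_mem hx ((Wt u τ).smul_mem _ hw))
        ((Wt u τ).smul_mem _ hw'W))
    obtain ⟨z2, hz2⟩ := hfix (σ := tv w (s / (μ ^ 2 - 1))) (ac_tv_fix huw _) (by
      intro x hx
      rw [ac_tv]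
      exact (Wt u τ).add_mem hx ((Wt u τ).smul_mem _ hw))
    have h1 := comm_mem hT (ac_tv_fix huw _) hz1 hz2
    have hTw : ac (tor w w' hww' μ hμ0) w = μ • w := by
      rw [ac_tor, hww', sf_self]; module
    rw [conj_tv, hTw, tv_smul, ← tv_neg, tv_mul] at h1
    have h2 : μ ^ 2 - 1 ≠ 0 := sub_ne_zero.2 hμ
    convert h1 using 2
    field_simp
    ring
  · have h3 : Fintype.card F = 3 := by omega
    have h2 := two_ne_zero_of_three h3
    have hm3 : 3 ≤ Fintype.card l := by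
      by_contra h
      exact hexc ⟨by omega, h3⟩
    obtain ⟨x, z, hxu, hxw, hzu, hzw, hxz⟩ := exists_pair_perp hm3 u w
    obtain ⟨β, hβ⟩ := Wt_proj hc1 hτu hτ hxu
    obtain ⟨γ, hγ⟩ := Wt_proj hc1 hτu hτ hzu
    set y := x - β • u with hy
    set y' := z - γ • u with hy'
    have hyy : sf y y' ≠ 0 := by
      rw [hy, hy', sf_sub_left, sf_sub_right, sf_sub_right, sf_smul_left, sf_smul_right,
        sf_smul_right, sf_smul_left, hxu, sf_comm0.1 hzu, sf_self]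
      simpa using hxz
    have hwy : sf w y = 0 := by
      rw [hy, sf_sub_right, sf_smul_right, sf_comm0.1 hxw, hwu]; ring
    have hwy' : sf w y' = 0 := by
      rw [hy', sf_sub_right, sf_smul_right, sf_comm0.1 hzw, hwu]; ring
    obtain ⟨t, ht⟩ : ∃ t : F, t = -(s / (2 * sf y y')) := ⟨_, rfl⟩
    have hwy'' : sf w (t • y') = 0 := by rw [sf_smul_right, hwy', mul_zero]
    have hfixu : ∀ {y₀ : Vc l F} (_ : sf w y₀ = 0), y₀ ∈ Wt u τ → ac (qe w y₀ 0) u = u ∧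
        ∀ x ∈ Wt u τ, ac (qe w y₀ 0) x ∈ Wt u τ := by
      intro y₀ h0 hyW
      constructor
      · rw [ac_qe h0, huw, sf_comm0.1 hyW.1]; module
      · intro x hx
        rw [ac_qe h0]
        exact (Wt u τ).add_mem ((Wt u τ).add_mem hx ((Wt u τ).smul_mem _ hyW))
          ((Wt u τ).smul_mem _ hw)
    obtain ⟨f1, f1'⟩ := hfixu hwy hβ
    obtain ⟨f2, f2'⟩ := hfixu hwy'' ((Wt u τ).smul_mem t hγ)
    obtain ⟨z1, hz1⟩ := hfix f1 f1'
    obtain ⟨z2, hz2⟩ := hfix f2 f2'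
    have h1 := comm_mem f1 f2 hz1 hz2
    have e : qe w y 0 * qe w (t • y') 0 * (qe w y 0)⁻¹ * (qe w (t • y') 0)⁻¹ = tv w s := by
      have e1 : qe w y 0 * qe w (t • y') 0 * (qe w y 0)⁻¹ * (qe w (t • y') 0)⁻¹ =
          (qe w y 0 * qe w (t • y') 0) * (qe w (t • y') 0 * qe w y 0)⁻¹ := by group
      rw [e1, mul_inv_eq_iff_eq_mul, qe_mul hwy hwy'', qe_mul hwy'' hwy, add_comm (t • y') y,
        tv_mul_qe (by rw [sf_add_right, hwy, hwy'', add_zero])]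
      congr 1
      rw [sf_smul_left, sf_smul_right, sf_swap y' y, ht]
      field_simp
      ring
    rwa [e] at h1

end Cfsg.Agent.MinS
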