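import Cfsg.Agent.MinS.Fin

/-!
# Points of the third type in rank two: structure
-/

set_option autoImplicit false
set_option linter.unusedSectionVars false

namespace Cfsg.Agent.MinS

open Matrix Cfsg.Agent.ClassSp Cfsg.Agent.LSSp Cfsg.Agent.Mdx

variable {l : Type*} [Fintype l] [DecidableEq l] {F : Type*} [Field F] [Fintype F]
variable {ψ : AddChar F ℂ} {u a : Vc l F} {M : Subgroup (Sp l F)}

theorem exists_scaled (hu : u ≠ 0) (ha : ∀ c : F, a ≠ c • u) (δ : F) :
    ∃ w : Vc l F, sf w u = 0 ∧ sf a w = δ := by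
  obtain ⟨z, hz, hz'⟩ := exists_perp hu ha
  exact ⟨(δ / sf a z) • z, by rw [sf_smul_left, hz, mul_zero], by
    rw [sf_smul_right, div_mul_cancel₀ _ hz']⟩

theorem KK_of_mod (hψ : ψ ≠ 1) (hA : SA ψ u M) (hu : u ≠ 0) (haD : a ∈ Dh ψ u M)
    (ha : ∀ c : F, a ≠ c • u) {g : Sp l F} (hg : ac g u = u) {c : F} (hga : ac g a = a + c • u) :
    g ∈ KK u M := by
  obtain ⟨w, hw, hw'⟩ := exists_scaled hu ha (-c)
  have huw := sf_comm0.1 hw
  have h1 : g * qe u w 0 ∈ KK u M := by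
    apply hA a haD ha
    · rw [ac_mul, ac_qe_self huw, hg]
    · rw [ac_mul, ac_qe_perp huw 0 (Dh_perp hψ haD), hw', ac_add, ac_smul, hga, hg]
      module
  have h2 := (KK u M).mul_mem h1 ((KK u M).inv_mem (QQ_le_KK u M (qe_mem_QQ huw 0)))
  rwa [mul_inv_cancel_right] at h2

theorem pu_num (hm : Fintype.card l = 2) (hu : u ≠ 0) :
    Nat.card (pu u).toAddSubgroup = Fintype.card F ^ 3 := by
  have h := card_pu hu
  rw [card_Vc, hm] at h
  have hq : 0 < Fintype.card F := Fintype.card_pos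
  apply Nat.eq_of_mul_eq_mul_left hq
  rw [h]; ring

theorem even_num {q k a d r : ℤ} (hq : 3 ≤ q) (h1 : (q - 1) * (d * r) ≤ k * a)
    (h2 : (q + 3) * a + 2 * q ≤ 2 * q * q) (hk : k * (q - 1) + q ≤ q ^ 4) (hk0 : 0 ≤ k)
    (hr0 : 0 ≤ r) (hd : 2 * q ≤ d) (hr : q ^ 3 - q ≤ r * q) : False := by
  have h3 : 2 * (q ^ 3 - q) ≤ d * r := by nlinarith
  have h4 : (q + 3) * (k * a) ≤ k * (2 * q * (q - 1)) := by nlinarith
  have h5 : k * (2 * q * (q - 1)) ≤ 2 * q * (q ^ 4 - q) := by nlinarith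
  have h6 : (q + 3) * ((q - 1) * (2 * (q ^ 3 - q))) ≤ (q + 3) * (k * a) :=
    mul_le_mul_of_nonneg_left ((mul_le_mul_of_nonneg_left h3 (by linarith)).trans h1)
      (by linarith)
  have h7 : (q + 3) * ((q - 1) * (2 * (q ^ 3 - q))) ≤ 2 * q * (q ^ 4 - q) := by linarith
  have h8 : q * (2 * q ^ 3 - 4 * q ^ 2 - q + 3) ≤ 0 := by nlinarith
  have h9 : 0 < 2 * q ^ 3 - 4 * q ^ 2 - q + 3 := by nlinarith [sq_nonneg (q - 3), mul_nonneg (by linarith : (0:ℤ) ≤ q - 3) (sq_nonneg q)]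
  nlinarith

/-- In the third type, `Bh` is orthogonal to `a`. -/
theorem Bh_perp (hψ : ψ ≠ 1) (hq : 3 ≤ Fintype.card F) (hm : Fintype.card l = 2) (hu : u ≠ 0)
    (hA : SA ψ u M) (hY : Yh u M ≠ ⊤) (hk : Small u M) (hIII : TIII ψ u M a) {w : Vc l F}
    (hw : w ∈ Bh u M) : sf w a = 0 := by
  classical
  obtain ⟨haD, ha, hD⟩ := hIII
  have hau := Dh_perp hψ haD
  have hua := sf_comm0.1 hau
  have ha0 : a ≠ 0 := fun h => ha 0 (by rw [h, zero_smul])
  by_contra hwa
  have hcaB : ∀ c : F, c • a ∈ Bh u M := fun c => TIII_Bh hψ ⟨haD, ha, hD⟩ (by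
    rw [sf_smul_left, hau, mul_zero]) (by rw [sf_smul_left, sf_self, mul_zero])
  by_cases h2 : (2 : F) = 0
  swap
  · exact hY (Yh_top_of_comm h2 hw hcaB hwa)
  -- the special elements
  have key : ∀ w ∈ Bh u M, sf w a ≠ 0 → ∀ β : F, qe u (β • a) (β * sf w a) ∈ M := by
    rintro w ⟨huw, s, hs⟩ hne β
    have h1 : tv a (β / sf w a) ∈ KK u M := hA a haD ha _ (ac_tv_fix hua _)
      (ac_tv_fix (sf_self a) _)
    obtain ⟨-, e, he, hM⟩ := h1
    obtain ⟨c, hc⟩ := ac_mul_QQ he (ac_tv_fix hua (β / sf w a)) (sf_comm0.1 huw)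
    have h3 := M.mul_mem (M.mul_mem hM hs) (M.inv_mem hM)
    rw [conj_qe huw, hc, ac_mul, QQ_le_fixs u he, ac_tv_fix hua, ac_tv,
      div_mul_cancel₀ _ hne, qe_add_smul (by rw [sf_add_right, sf_smul_right, huw, hua]; ring), h2,
      zero_mul, add_zero] at h3
    have h4 := M.mul_mem h3 (M.inv_mem hs)
    rw [qe_inv huw, qe_mul (by rw [sf_add_right, sf_smul_right, huw, hua]; ring)
      (by rw [sf_neg_right, huw, neg_zero]), sf_neg_left, sf_add_right, sf_smul_right, sf_self] at h4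
    have e1 : w + β • a + -w = β • a := by module
    have e2 : s + -s + -(0 + β * sf w a) = β * sf w a := by
      linear_combination (-(β * sf w a)) * h2
    rwa [e1, e2] at h4
  have hconst : ∀ w' ∈ Bh u M, sf w' a ≠ 0 → sf w' a = sf w a := by
    intro w' hw' hne
    by_contra hdiff
    apply hY
    rw [eq_top_iff]
    intro t _
    have h3 : sf w' a - sf w a ≠ 0 := sub_ne_zero.2 hdiff
    have h4 := M.mul_mem (key w' hw' hne (t / (sf w' a - sf w a)))
      (M.inv_mem (key w hw hwa (t / (sf w' a - sf w a))))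
    have e : qe u ((t / (sf w' a - sf w a)) • a) (t / (sf w' a - sf w a) * sf w' a) *
        (qe u ((t / (sf w' a - sf w a)) • a) (t / (sf w' a - sf w a) * sf w a))⁻¹ = tv u t := by
      rw [mul_inv_eq_iff_eq_mul, tv_mul_qe (by rw [sf_smul_right, hua, mul_zero])]
      congr 1
      field_simp
      ring
    rw [e] at h4
    exact h4
  have horb : ∀ g ∈ KK u M, ∃ c : F, ac g a = a + c • u := by
    intro g hg
    obtain ⟨c, d, hcd⟩ := hD _ (Dh_KK hψ hg haD)
    have h3 := Bh_KK hg hw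
    have h4 := sf_ac g w a
    have h5 : sf (ac g w) u = 0 := sf_comm0.1 h3.1
    rw [hcd, sf_add_right, sf_smul_right, sf_smul_right, h5, mul_zero, zero_add] at h4
    have h6 : sf (ac g w) a ≠ 0 := by
      intro h0
      rw [h0, mul_zero] at h4
      exact hwa h4.symm
    rw [hconst _ h3 h6] at h4
    have hd : d = 1 := mul_right_cancel₀ hwa (h4.trans (one_mul _).symm)
    exact ⟨c, by rw [hcd, hd, one_smul, add_comm]⟩
  have hrel : (fixs a).relIndex (KK u M) ≤ Fintype.card F := by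
    rw [relIndex_fixs, ← Nat.card_eq_fintype_card]
    choose f hf using fun v : {v : Vc l F // ∃ g ∈ KK u M, ac g a = v} =>
      (show ∃ c : F, v.1 = a + c • u by
        obtain ⟨g, hg, h⟩ := v.2
        obtain ⟨c, hc⟩ := horb g hg
        exact ⟨c, by rw [← h, hc]⟩)
    refine Nat.card_le_card_of_injective f ?_
    intro v v' h
    apply Subtype.ext
    rw [hf v, hf v', h]
  have h1 := two_chains (A := fixs a) (KK_le_fixs u M)
  have h3 := orbit_fixs hu hau ha
  have h4 := card_diff hu (pu u).toAddSubgroup (fun c => by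
    rw [Submodule.mem_toAddSubgroup, mem_pu, sf_smul_left, sf_self, mul_zero])
  rw [pu_num hm hu, ← h3] at h4
  have h5 : Fintype.card F ^ 3 ≤ (KK u M).relIndex (fixs u) * Fintype.card F + Fintype.card F := by
    rw [← h4]
    apply Nat.add_le_add_right
    have hf : 1 ≤ (KK u M).relIndex (fixs u ⊓ fixs a) :=
      Nat.one_le_iff_ne_zero.2 (rel_ne_zero _ _)
    calc (fixs a).relIndex (fixs u) = (fixs a).relIndex (fixs u) * 1 := (mul_one _).symm
      _ ≤ (fixs a).relIndex (fixs u) * (KK u M).relIndex (fixs u ⊓ fixs a) :=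
          Nat.mul_le_mul_left _ hf
      _ = (KK u M).relIndex (fixs u) * (fixs a).relIndex (KK u M) := h1.symm
      _ ≤ _ := Nat.mul_le_mul_left _ hrel
  have h6 : 2 * Fintype.card F ≤ Nat.card (Dh ψ u M) := by
    have h7 := card_diff hu (Dh ψ u M) (smul_mem_Dh u M)
    have h8 : Fintype.card F ≤ Nat.card {v : Vc l F // v ∈ Dh ψ u M ∧ ∀ c : F, v ≠ c • u} := by
      rw [← Nat.card_eq_fintype_card (α := F)]
      refine Nat.card_le_card_of_injective (fun c : F => ⟨a + c • u,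
        (Dh ψ u M).add_mem haD (smul_mem_Dh u M c), fun d hd => ?_⟩) ?_
      · apply ha (d - c)
        rw [sub_smul, ← hd]; module
      · intro c d h
        have h9 : a + c • u = a + d • u := congrArg Subtype.val h
        exact smul_left_injective F hu (add_left_cancel h9)
    omega
  have h7 := main_ineq hψ hu M
  have h8 := zz (u := u) (M := M) hq hY
  have hk' := hk
  unfold Small at hk'
  rw [card_Vc, hm] at hk'
  have hq1 : 1 ≤ Fintype.card F := by omega
  zify [hq1] at h5 h6 h7 h8 hk' hq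
  norm_num at hk'
  exact even_num hq h7 h8 hk' (Int.natCast_nonneg _) (Int.natCast_nonneg _) h6 (by linarith)

/-- The multipliers on `a`. -/
def D2 (u a : Vc l F) (M : Subgroup (Sp l F)) : Subgroup Fˣ where
  carrier := {μ | ∃ g ∈ KK u M, ∃ c : F, ac g a = (μ : F) • a + c • u}
  one_mem' := ⟨1, (KK u M).one_mem, 0, by rw [ac_one, Units.val_one]; module⟩
  mul_mem' := by
    rintro μ ν ⟨g, hg, c, h⟩ ⟨g', hg', c', h'⟩
    refine ⟨g * g', (KK u M).mul_mem hg hg', (ν : F) * c + c', ?_⟩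
    rw [ac_mul, h', ac_add, ac_smul, ac_smul, h, hg.1, Units.val_mul]
    module
  inv_mem' := by
    rintro μ ⟨g, hg, c, h⟩
    refine ⟨g⁻¹, (KK u M).inv_mem hg, -((μ⁻¹ : Fˣ) : F) * c, ?_⟩
    have h1 : a = (μ : F) • ac g⁻¹ a + c • u := by
      have h2 := congrArg (ac g⁻¹) h
      rw [ac_inv_ac, ac_add, ac_smul, ac_smul, ac_inv_fix hg.1] at h2
      exact h2
    have h3 : ac g⁻¹ a = ((μ⁻¹ : Fˣ) : F) • ((μ : F) • ac g⁻¹ a) := by
      rw [smul_smul, Units.inv_mul, one_smul]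
    have h4 : (μ : F) • ac g⁻¹ a = a - c • u := by
      nth_rw 2 [h1]
      module
    rw [h3, h4]; module

variable (ψ u M) in
/-- Standing information on a point of the third type. -/
structure Pt (a : Vc l F) : Prop where
  hψ : ψ ≠ 1
  hq : 3 ≤ Fintype.card F
  hm : Fintype.card l = 2
  hu : u ≠ 0
  hA : SA ψ u M
  hY : Yh u M ≠ ⊤
  hk : Small u M
  hIII : TIII ψ u M a

namespace Pt

variable (P : Pt ψ u M a)
include P

theorem perp {w : Vc l F} (hw : w ∈ Bh u M) : sf w a = 0 :=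
  Bh_perp P.hψ P.hq P.hm P.hu P.hA P.hY P.hk P.hIII hw

theorem au : sf a u = 0 := Dh_perp P.hψ P.hIII.1

theorem ua : sf u a = 0 := sf_comm0.1 P.au

theorem a0 : a ≠ 0 := fun h => P.hIII.2.1 0 (by rw [h, zero_smul])

theorem line {w : Vc l F} (h1 : sf w u = 0) (h2 : sf w a = 0) : ∃ c d : F, w = c • u + d • a :=
  perp_line P.hm P.hu P.hIII.2.1 P.au h1 h2

theorem Bh_line {w : Vc l F} (hw : w ∈ Bh u M) : ∃ c d : F, w = c • u + d • a :=
  P.line (sf_comm0.1 hw.1) (P.perp hw)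

theorem mem_Bh (c d : F) : c • u + d • a ∈ Bh u M :=
  TIII_Bh P.hψ P.hIII (by
    rw [sf_add_left, sf_smul_left, sf_smul_left, sf_self, P.au]; ring) (by
    rw [sf_add_left, sf_smul_left, sf_smul_left, sf_self, P.ua]; ring)

theorem mem_Dh (c d : F) : c • u + d • a ∈ Dh ψ u M := by
  rw [MinS.mem_Dh]
  intro b hb
  rw [sf_add_left, sf_smul_left, sf_smul_left, hb.1, sf_comm0.1 (P.perp hb), mul_zero, mul_zero,
    add_zero, AddChar.map_zero_eq_one]

theorem card_Dh : Nat.card (Dh ψ u M) = Fintype.card F * Fintype.card F := by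
  have : Dh ψ u M = (Submodule.span F {u, a}).toAddSubgroup := by
    ext x
    rw [Submodule.mem_toAddSubgroup, Submodule.mem_span_pair]
    constructor
    · intro hx
      obtain ⟨c, d, h⟩ := P.hIII.2.2 x hx
      exact ⟨c, d, h.symm⟩
    · rintro ⟨c, d, rfl⟩
      exact P.mem_Dh c d
  rw [this, card_pair P.hu P.hIII.2.1]

theorem orb_fixs : (fixs a).relIndex (fixs u) + Fintype.card F = Fintype.card F ^ 3 := by
  have h3 := orbit_fixs P.hu P.au P.hIII.2.1
  have h4 := card_diff P.hu (pu u).toAddSubgroup (fun c => by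
    rw [Submodule.mem_toAddSubgroup, mem_pu, sf_smul_left, sf_self, mul_zero])
  rw [pu_num P.hm P.hu, ← h3] at h4
  exact h4

/-- `r ≥ q + 1`. -/
theorem r_ge : Fintype.card F + 1 ≤ (KK u M).relIndex (fixs u) := by
  have h1 := orbit_ineq P.hψ P.hu P.hIII.1 P.hIII.2.1
  rw [pu_num P.hm P.hu, P.card_Dh] at h1
  have hf : 1 ≤ (KK u M).relIndex (fixs u ⊓ fixs a) :=
    Nat.one_le_iff_ne_zero.2 (rel_ne_zero _ _)
  set q := Fintype.card F with hq
  have hq3 := P.hq
  have e1 : q ^ 3 - q = (q + 1) * (q * q - q) := by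
    obtain ⟨p, hp⟩ : ∃ p, q = p + 1 := ⟨q - 1, by omega⟩
    rw [hp]
    have : (p + 1) * (p + 1) - (p + 1) = (p + 1) * p := by
      rw [Nat.sub_eq_iff_eq_add (Nat.le_mul_self _)]; ring
    rw [this, Nat.sub_eq_iff_eq_add (Nat.le_self_pow (by norm_num) _)]
    ring
  have h2 : (q + 1) * (q * q - q) ≤ (KK u M).relIndex (fixs u) * (q * q - q) := by
    rw [← e1]
    exact le_trans (by nlinarith) h1
  refine Nat.le_of_mul_le_mul_right h2 ?_
  have : q * 1 < q * q := Nat.mul_lt_mul_of_pos_left (by omega) (by omega)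
  omega

theorem orb_D2 : (fixs a).relIndex (KK u M) ≤ Nat.card (D2 u a M) * Fintype.card F := by
  rw [relIndex_fixs, ← Nat.card_eq_fintype_card, ← Nat.card_prod]
  have hex : ∀ v : {v : Vc l F // ∃ g ∈ KK u M, ac g a = v}, ∃ p : (D2 u a M) × F,
      v.1 = ((p.1 : Fˣ) : F) • a + p.2 • u := by
    rintro ⟨v, g, hg, h⟩
    obtain ⟨c, d, hcd⟩ := P.hIII.2.2 _ (Dh_KK P.hψ hg P.hIII.1)
    have hd : d ≠ 0 := by
      rintro rfl
      rw [zero_smul, add_zero] at hcd
      apply P.hIII.2.1 c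
      rw [← ac_inv_ac g a, hcd, ac_smul, ac_inv_fix hg.1]
    refine ⟨(⟨Units.mk0 d hd, g, hg, c, by rw [hcd, Units.val_mk0, add_comm]⟩, c), ?_⟩
    change v = d • a + c • u
    rw [← h, hcd, add_comm]
  choose f hf using hex
  refine Nat.card_le_card_of_injective f ?_
  intro v v' h
  apply Subtype.ext
  rw [hf v, hf v', h]

end Pt

theorem half_of_ne_top {H : Subgroup Fˣ} (h : H ≠ ⊤) :
    2 * Nat.card H + 1 ≤ Fintype.card F := by
  classical
  have h1 := H.index_mul_card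
  have h2 : H.index ≠ 1 := fun h' => h (Subgroup.index_eq_one.1 h')
  have h3 : H.index ≠ 0 := Subgroup.index_ne_zero_of_finite
  have h4 : Nat.card Fˣ = Fintype.card F - 1 := by
    rw [Nat.card_eq_fintype_card, Fintype.card_units]
  have h5 : 1 < Fintype.card F := Fintype.one_lt_card
  have h6 : 2 * Nat.card H ≤ H.index * Nat.card H := Nat.mul_le_mul_right _ (by omega)
  omega

theorem d2_num {q k a r e : ℤ} (hq : 3 ≤ q) (h1 : (q - 1) * ((q * q) * r) ≤ k * a)
    (h2 : (q + 3) * a + 2 * q ≤ 2 * q * q) (hk : k * (q - 1) + q ≤ q ^ 4) (hk0 : 0 ≤ k)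
    (hr0 : 0 ≤ r) (he : 2 * e + 1 ≤ q) (hr : q ^ 3 ≤ r * (e * q) + q) : False := by
  have hr' : q ^ 2 - 1 ≤ r * e := by
    have h : q * (q ^ 2 - 1) ≤ q * (r * e) := by nlinarith
    exact le_of_mul_le_mul_left h (by linarith)
  have hr2 : 2 * (q + 1) ≤ r := by
    have h : (q - 1) * (2 * (q + 1)) ≤ (q - 1) * r := by nlinarith
    exact le_of_mul_le_mul_left h (by linarith)
  have h4 : (q + 3) * (k * a) ≤ k * (2 * q * (q - 1)) := by nlinarith
  have h5 : k * (2 * q * (q - 1)) ≤ 2 * q * (q ^ 4 - q) := by nlinarith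
  have h3 : (q * q) * (2 * (q + 1)) ≤ (q * q) * r :=
    mul_le_mul_of_nonneg_left hr2 (by nlinarith)
  have h6 : (q + 3) * ((q - 1) * ((q * q) * (2 * (q + 1)))) ≤ (q + 3) * (k * a) :=
    mul_le_mul_of_nonneg_left ((mul_le_mul_of_nonneg_left h3 (by linarith)).trans h1)
      (by linarith)
  have h7 : (q + 3) * ((q - 1) * ((q * q) * (2 * (q + 1)))) ≤ 2 * q * (q ^ 4 - q) := by linarith
  have h8 : (q * q) * (3 * q ^ 2 - q - 2) ≤ 0 := by nlinarith
  have h9 : 0 < 3 * q ^ 2 - q - 2 := by nlinarith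
  nlinarith [mul_pos (mul_pos (by linarith : (0:ℤ) < q) (by linarith : (0:ℤ) < q)) h9]

namespace Pt

variable (P : Pt ψ u M a)
include P

theorem D2_top : D2 u a M = ⊤ := by
  by_contra hne
  have h0 := half_of_ne_top hne
  have h1 := two_chains (A := fixs a) (KK_le_fixs u M)
  have h2 := P.orb_fixs
  have h3 := P.orb_D2
  have hf : 1 ≤ (KK u M).relIndex (fixs u ⊓ fixs a) :=
    Nat.one_le_iff_ne_zero.2 (rel_ne_zero _ _)
  have h5 : Fintype.card F ^ 3 ≤
      (KK u M).relIndex (fixs u) * (Nat.card (D2 u a M) * Fintype.card F) + Fintype.card F := by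
    rw [← h2]
    apply Nat.add_le_add_right
    calc (fixs a).relIndex (fixs u) = (fixs a).relIndex (fixs u) * 1 := (mul_one _).symm
      _ ≤ (fixs a).relIndex (fixs u) * (KK u M).relIndex (fixs u ⊓ fixs a) :=
          Nat.mul_le_mul_left _ hf
      _ = (KK u M).relIndex (fixs u) * (fixs a).relIndex (KK u M) := h1.symm
      _ ≤ _ := Nat.mul_le_mul_left _ h3
  have h7 := main_ineq P.hψ P.hu M
  rw [P.card_Dh] at h7
  have h8 := zz (u := u) (M := M) P.hq P.hY
  have hk' := P.hk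
  unfold Small at hk'
  rw [card_Vc, P.hm] at hk'
  have hq := P.hq
  have hq1 : 1 ≤ Fintype.card F := by omega
  zify [hq1] at h0 h5 h7 h8 hk' hq
  norm_num at hk'
  exact d2_num hq h7 h8 hk' (Int.natCast_nonneg _) (Int.natCast_nonneg _) h0 h5

/-- Every multiplier on `a` occurs in `M`. -/
theorem exists_mu {μ : F} (hμ : μ ≠ 0) : ∃ g ∈ M, ac g u = u ∧ ∃ c : F, ac g a = μ • a + c • u := by
  have h : Units.mk0 μ hμ ∈ D2 u a M := by rw [P.D2_top]; exact Subgroup.mem_top _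
  obtain ⟨g, ⟨hgu, e, he, hM⟩, c, hc⟩ := h
  obtain ⟨d, hd⟩ := ac_mul_QQ he hgu P.au
  refine ⟨g * e, hM, by rw [ac_mul, QQ_le_fixs u he, hgu], c + d, ?_⟩
  rw [hd, hc, Units.val_mk0]; module

end Pt

/-- `Lam` as a subgroup. -/
def LamG (u : Vc l F) (M : Subgroup (Sp l F)) : Subgroup Fˣ where
  carrier := {μ | ∃ g ∈ M, ac g u = (μ : F) • u}
  one_mem' := ⟨1, M.one_mem, by rw [ac_one, Units.val_one, one_smul]⟩
  mul_mem' := by
    rintro μ ν ⟨g, hg, h⟩ ⟨g', hg', h'⟩
    refine ⟨g * g', M.mul_mem hg hg', ?_⟩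
    rw [ac_mul, h', ac_smul, h, Units.val_mul]
    module
  inv_mem' := by
    rintro μ ⟨g, hg, h⟩
    refine ⟨g⁻¹, M.inv_mem hg, ?_⟩
    have h3 : u = ((μ⁻¹ : Fˣ) : F) • ac g u := by
      rw [h, smul_smul, Units.inv_mul, one_smul]
    conv_lhs => rw [h3]
    rw [ac_smul, ac_inv_ac]

theorem card_LamG (u : Vc l F) (M : Subgroup (Sp l F)) :
    Nat.card (LamG u M) = Nat.card (Lam u M) := by
  apply Nat.card_congr
  refine ⟨fun μ => ⟨μ.1, μ.1.ne_zero, μ.2⟩, fun c => ⟨Units.mk0 c.1 c.2.1, c.2.2⟩, ?_, ?_⟩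
  · intro μ
    apply Subtype.ext
    exact Units.ext rfl
  · intro c; rfl

theorem lamt_num {q k L r : ℤ} (hq : 3 ≤ q) (h1 : (q - 1) * ((q * q) * r) ≤ k * L)
    (hk : k * (q - 1) + q ≤ q ^ 4) (hk0 : 0 ≤ k) (hr : q + 1 ≤ r) (hL : 2 * L + 1 ≤ q) : False := by
  have h2 : (q - 1) * ((q * q) * (q + 1)) ≤ (q - 1) * ((q * q) * r) :=
    mul_le_mul_of_nonneg_left (mul_le_mul_of_nonneg_left hr (by nlinarith)) (by linarith)
  have h3 : 2 * (k * L) ≤ k * (q - 1) := by nlinarith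
  have h4 : 2 * ((q - 1) * ((q * q) * (q + 1))) + q ≤ q ^ 4 := by linarith
  nlinarith [mul_pos (mul_pos (by linarith : (0:ℤ) < q) (by linarith : (0:ℤ) < q)) (by nlinarith : (0:ℤ) < q * q - 2)]

namespace Pt

variable (P : Pt ψ u M a)
include P

theorem Lam_top (hY0 : Yh u M = ⊥) {c : F} (hc : c ≠ 0) : ∃ g ∈ M, ac g u = c • u := by
  have h : LamG u M = ⊤ := by
    by_contra hne
    have h0 := half_of_ne_top hne
    rw [card_LamG] at h0
    have h7 := main_ineq P.hψ P.hu M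
    rw [P.card_Dh, hY0, AddSubgroup.card_bot, mul_one] at h7
    have hr := P.r_ge
    have hk' := P.hk
    unfold Small at hk'
    rw [card_Vc, P.hm] at hk'
    have hq := P.hq
    have hq1 : 1 ≤ Fintype.card F := by omega
    zify [hq1] at h0 h7 hr hk' hq
    norm_num at hk'
    exact lamt_num hq h7 hk' (Int.natCast_nonneg _) hr h0
  have h1 : Units.mk0 c hc ∈ LamG u M := by rw [h]; exact Subgroup.mem_top _
  exact h1

/-- `k_u ≥ q²(q+1)`. -/
theorem k_ge (hY0 : Yh u M = ⊥) : Fintype.card F * Fintype.card F * (Fintype.card F + 1) ≤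
    M.relIndex (PP u) := by
  have h7 := main_ineq P.hψ P.hu M
  rw [P.card_Dh, hY0, AddSubgroup.card_bot, mul_one] at h7
  have hr := P.r_ge
  have hL := card_Lam_le_top u M
  have hq := P.hq
  have h1 : (Fintype.card F - 1) * (Fintype.card F * Fintype.card F * (Fintype.card F + 1)) ≤
      (Fintype.card F - 1) * M.relIndex (PP u) := by
    calc (Fintype.card F - 1) * (Fintype.card F * Fintype.card F * (Fintype.card F + 1))
        ≤ (Fintype.card F - 1) * (Fintype.card F * Fintype.card F *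
            (KK u M).relIndex (fixs u)) :=
          Nat.mul_le_mul_left _ (Nat.mul_le_mul_left _ hr)
      _ ≤ M.relIndex (PP u) * Nat.card (Lam u M) := h7
      _ ≤ M.relIndex (PP u) * (Fintype.card F - 1) := Nat.mul_le_mul_left _ (by omega)
      _ = _ := mul_comm _ _
  exact Nat.le_of_mul_le_mul_left h1 (by omega)

end Pt

end Cfsg.Agent.MinS
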