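import Cfsg.Agent.MinS.T3a

/-!
# Points of the third type in rank two: a centre
-/

set_option autoImplicit false
set_option linter.unusedSectionVars false

namespace Cfsg.Agent.MinS

open Matrix Cfsg.Agent.ClassSp Cfsg.Agent.LSSp Cfsg.Agent.Mdx

variable {l : Type*} [Fintype l] [DecidableEq l] {F : Type*} [Field F] [Fintype F]
variable {ψ : AddChar F ℂ} {u a : Vc l F} {M : Subgroup (Sp l F)}

theorem qe_uniq (hY0 : Yh u M = ⊥) {w : Vc l F} (hw : sf u w = 0) {s s' : F}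
    (h : qe u w s ∈ M) (h' : qe u w s' ∈ M) : s = s' := by
  have h1 := M.mul_mem h (M.inv_mem h')
  have e : qe u w s * (qe u w s')⁻¹ = tv u (s - s') := by
    rw [mul_inv_eq_iff_eq_mul, tv_mul_qe hw, sub_add_cancel]
  rw [e] at h1
  have h2 : s - s' ∈ Yh u M := h1
  rw [hY0, AddSubgroup.mem_bot] at h2
  exact sub_eq_zero.1 h2

theorem tau_of {c : F} (hc : c ≠ 0) {g : Sp l F} (hg : g ∈ M) (hgu : ac g u = c • u)
    {v : Vc l F} (hv : sf u v = 1) (hKK : (tor u v hv c hc)⁻¹ * g ∈ KK u M) :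
    ∃ τ ∈ M, ac τ u = c • u ∧ ∀ x, sf x u = 0 → ∃ d : F, ac τ x = x + d • u := by
  set T := tor u v hv c hc with hT
  obtain ⟨hfix, e, he, hM⟩ := hKK
  refine ⟨g * (T⁻¹ * g * e)⁻¹, M.mul_mem hg (M.inv_mem hM), ?_, ?_⟩
  · have h1 : ac (T⁻¹ * g * e) u = u := by rw [ac_mul, QQ_le_fixs u he, hfix]
    rw [ac_mul, ac_inv_fix h1, hgu]
  · intro x hx
    have e1 : g * (T⁻¹ * g * e)⁻¹ = g * e⁻¹ * g⁻¹ * T := by group
    have h1 : g * e⁻¹ * g⁻¹ ∈ QQ u := by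
      have := QQ_conj (g := g) ((QQ u).inv_mem he)
      rw [hgu] at this
      exact QQ_smul_le u hc this
    have hTx : ac T x = x + ((c - 1) * sf x v) • u := by
      rw [hT, ac_tor, hx]; module
    obtain ⟨d, hd⟩ := QQ_perp h1 hx
    refine ⟨d + (c - 1) * sf x v, ?_⟩
    rw [e1, ac_mul, hTx, ac_add, ac_smul, QQ_le_fixs u h1, hd]
    module

namespace Pt

theorem shift (P : Pt ψ u M a) (ζ : F) : Pt ψ u M (a + ζ • u) := by
  refine ⟨P.hψ, P.hq, P.hm, P.hu, P.hA, P.hY, P.hk, ?_, ?_, ?_⟩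
  · exact (Dh ψ u M).add_mem P.hIII.1 (smul_mem_Dh u M ζ)
  · intro c hc
    apply P.hIII.2.1 (c - ζ)
    rw [sub_smul, ← hc]; module
  · intro x hx
    obtain ⟨c, d, h⟩ := P.hIII.2.2 x hx
    exact ⟨c - d * ζ, d, by rw [h]; module⟩

variable (P : Pt ψ u M a)
include P

theorem exists_lift0 (hY0 : Yh u M = ⊥) :
    ∃ ζ : F, ∀ β : F, qe u (β • (a + ζ • u)) 0 ∈ M := by
  classical
  obtain ⟨μ, hμ⟩ : ∃ r : F, r ∉ ({0, 1} : Finset F) := by
    by_contra hcon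
    push Not at hcon
    have h1 : Fintype.card F ≤ ({0, 1} : Finset F).card := by
      rw [← Finset.card_univ]
      exact Finset.card_le_card fun x _ => hcon x
    have h2 : ({0, 1} : Finset F).card ≤ 2 := Finset.card_le_two
    have := P.hq
    omega
  rw [Finset.mem_insert, Finset.mem_singleton, not_or] at hμ
  obtain ⟨hμ0, hμ1⟩ := hμ
  obtain ⟨g, hg, hgu, c, hga⟩ := P.exists_mu hμ0
  have hua := P.ua
  have hsa : ∀ β : F, sf u (β • a) = 0 := fun β => by rw [sf_smul_right, hua, mul_zero]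
  have hex : ∀ β : F, ∃ s, qe u (β • a) s ∈ M := by
    intro β
    have := P.mem_Bh 0 β
    rw [zero_smul, zero_add] at this
    exact this.2
  choose φ hφ using hex
  have hadd : ∀ β β' : F, φ (β + β') = φ β + φ β' := by
    intro β β'
    apply qe_uniq hY0 (hsa _) (hφ _)
    have h1 := M.mul_mem (hφ β) (hφ β')
    rw [qe_mul (hsa _) (hsa _), sf_smul_left, sf_smul_right, sf_self, mul_zero, mul_zero,
      add_zero, ← add_smul] at h1
    exact h1
  have hmul : ∀ β : F, φ (β * μ) = φ β + 2 * (β * c) := by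
    intro β
    apply qe_uniq hY0 (hsa _) (hφ _)
    have h1 := M.mul_mem (M.mul_mem hg (hφ β)) (M.inv_mem hg)
    rw [conj_qe (hsa _), hgu, ac_smul, hga, smul_add, smul_smul, smul_smul, qe_add_smul (hsa _)] at h1
    exact h1
  have h3 : μ - 1 ≠ 0 := sub_ne_zero.2 hμ1
  refine ⟨c / (μ - 1), fun β => ?_⟩
  have h4 : φ β = 2 * (β * (c / (μ - 1))) := by
    have h5 := hmul (β / (μ - 1))
    have h6 := hadd (β / (μ - 1)) β
    have e1 : β / (μ - 1) * μ = β / (μ - 1) + β := by field_simp; ring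
    rw [e1, h6] at h5
    have h7 := add_left_cancel h5
    rw [h7]; ring
  rw [smul_add, smul_smul, qe_add_smul (hsa _), zero_add, ← h4]
  exact hφ β

theorem exists_tau3 (hY0 : Yh u M = ⊥) (hE : ∀ β : F, qe u (β • a) 0 ∈ M) {c : F} (hc : c ≠ 0) :
    ∃ τ ∈ M, ac τ u = c • u ∧ ∀ x, sf x u = 0 → ∃ d : F, ac τ x = x + d • u := by
  obtain ⟨g, hg, hgu⟩ := P.Lam_top hY0 hc
  have hau := P.au
  -- the image of `a`
  have hgB : c • ac g a ∈ Bh u M := by
    have h0 : sf u (ac g a) = 0 := by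
      have h1 := sf_ac g u a
      rw [hgu, sf_smul_left, P.ua] at h1
      exact (mul_eq_zero.1 h1).resolve_left hc
    have h1 := M.mul_mem (M.mul_mem hg (hE 1)) (M.inv_mem hg)
    rw [one_smul, conj_qe P.ua, hgu, qe_smul_left h0] at h1
    exact ⟨by rw [sf_smul_right, h0, mul_zero], _, h1⟩
  obtain ⟨x, y, hxy⟩ := P.Bh_line hgB
  have hga : ac g a = (c⁻¹ * x) • u + (c⁻¹ * y) • a := by
    have : ac g a = c⁻¹ • (c • ac g a) := by rw [smul_smul, inv_mul_cancel₀ hc, one_smul]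
    rw [this, hxy]; module
  have hy : c⁻¹ * y ≠ 0 := by
    intro h0
    rw [h0, zero_smul, add_zero] at hga
    apply P.hIII.2.1 (c⁻¹ * x * c⁻¹)
    have h1 : ac g a = ac g ((c⁻¹ * x * c⁻¹) • u) := by
      rw [ac_smul, hgu, smul_smul, hga]
      congr 1
      field_simp
    exact ac_inj.1 h1
  obtain ⟨g₁, hg₁, hg₁u, d, hg₁a⟩ := P.exists_mu (inv_ne_zero hy)
  have hτu : ac (g * g₁) u = c • u := by rw [ac_mul, hg₁u, hgu]
  obtain ⟨k, hk⟩ : ∃ k : F, ac (g * g₁) a = a + k • u := by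
    refine ⟨(c⁻¹ * y)⁻¹ * (c⁻¹ * x) + d * c, ?_⟩
    rw [ac_mul, hg₁a, ac_add, ac_smul, ac_smul, hga, hgu]
    have e : (c⁻¹ * y)⁻¹ • ((c⁻¹ * x) • u + (c⁻¹ * y) • a) =
        ((c⁻¹ * y)⁻¹ * (c⁻¹ * x)) • u + a := by
      rw [smul_add, smul_smul, smul_smul, inv_mul_cancel₀ hy, one_smul]
    rw [e]; module
  obtain ⟨v, hv⟩ := exists_dual P.hu
  set T := tor u v hv c hc with hT
  have hTu : ac T u = c • u := by
    rw [hT, ac_tor, hv, sf_self]; module
  have hTi : ∀ r : F, ac T⁻¹ (r • u) = (c⁻¹ * r) • u := by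
    intro r
    have : r • u = ac T ((c⁻¹ * r) • u) := by
      rw [ac_smul, hTu, smul_smul]
      congr 1
      field_simp
    rw [this, ac_inv_ac]
  have hTa : ac T a = a + ((c - 1) * sf a v) • u := by
    rw [hT, ac_tor, hau]; module
  have hTia : ac T⁻¹ a = a - (c⁻¹ * ((c - 1) * sf a v)) • u := by
    have h1 : a = ac T a - ((c - 1) * sf a v) • u := by rw [hTa]; module
    conv_lhs => rw [h1]
    rw [ac_sub, ac_inv_ac, hTi]
  refine tau_of hc (M.mul_mem hg hg₁) hτu hv ?_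
  refine KK_of_mod P.hψ P.hA P.hu P.hIII.1 P.hIII.2.1
    (c := -(c⁻¹ * ((c - 1) * sf a v)) + c⁻¹ * k) ?_ ?_
  · rw [ac_mul, hτu, hTi, inv_mul_cancel₀ hc, one_smul]
  · rw [ac_mul, hk, ac_add, hTi, hTia]; module

theorem shift_tau (hY0 : Yh u M = ⊥) (hE : ∀ β : F, qe u (β • a) 0 ∈ M) {c : F} (hc : c ≠ 0)
    (hc1 : c ≠ 1) {τ : Sp l F} (hτM : τ ∈ M) (hτu : ac τ u = c • u)
    (hτ : ∀ x, sf x u = 0 → ∃ d : F, ac τ x = x + d • u) :
    ∃ ζ : F, ac τ (a + ζ • u) = a + ζ • u ∧ ∀ β : F, qe u (β • (a + ζ • u)) 0 ∈ M := by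
  obtain ⟨η, hη⟩ := hτ a P.au
  have hsa : ∀ β : F, sf u (β • a) = 0 := fun β => by rw [sf_smul_right, P.ua, mul_zero]
  have h2η : 2 * η = 0 := by
    have h1 := M.mul_mem (M.mul_mem hτM (hE 1)) (M.inv_mem hτM)
    have h0 : sf u (a + η • u) = 0 := by rw [sf_add_right, sf_smul_right, sf_self, P.ua]; ring
    rw [one_smul, conj_qe P.ua, hτu, hη, qe_smul_left h0, smul_add, smul_smul,
      qe_add_smul (hsa _)] at h1
    have h3 := qe_uniq hY0 (hsa c) h1 (hE c)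
    have h4 : c * (2 * η) = 0 := by linear_combination h3
    exact (mul_eq_zero.1 h4).resolve_left hc
  have hc2 : c - 1 ≠ 0 := sub_ne_zero.2 hc1
  refine ⟨-(η / (c - 1)), ?_, fun β => ?_⟩
  · rw [ac_add, ac_smul, hτu, hη]
    have e : η = η / (c - 1) * (c - 1) := by rw [div_mul_cancel₀ _ hc2]
    conv_lhs => rw [show (a + η • u : Vc l F) = a + (η / (c - 1) * (c - 1)) • u by rw [← e]]
    module
  · have h5 : (0 : F) + 2 * (β * -(η / (c - 1))) = 0 := by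
      have : 2 * (β * -(η / (c - 1))) = -(β / (c - 1)) * (2 * η) := by ring
      rw [this, h2η]; ring
    rw [smul_add, smul_smul, qe_add_smul (hsa _), h5]
    exact hE β

/-- The transvections with centre `a`. -/
theorem tv_mem3 (hY0 : Yh u M = ⊥) (hE : ∀ β : F, qe u (β • a) 0 ∈ M) {c : F} (hc : c ≠ 0)
    (hc2 : c ^ 2 ≠ 1) {τ : Sp l F} (hτM : τ ∈ M) (hτu : ac τ u = c • u)
    (hτ : ∀ x, sf x u = 0 → ∃ d : F, ac τ x = x + d • u) (hτa : ac τ a = a) (t : F) :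
    tv a t ∈ M := by
  have hc1 : c ≠ 1 := by rintro rfl; exact hc2 (one_pow 2)
  have hsa : ∀ β : F, sf u (β • a) = 0 := fun β => by rw [sf_smul_right, P.ua, mul_zero]
  obtain ⟨-, e, ⟨w, s, hw, rfl⟩, hM⟩ := P.hA a P.hIII.1 P.hIII.2.1 (tv a t)
    (ac_tv_fix P.ua _) (ac_tv_fix (sf_self a) _)
  obtain ⟨η, hη⟩ := hτ w (sf_comm0.1 hw)
  have hsw : ∀ β : F, sf u (β • w) = 0 := fun β => by rw [sf_smul_right, hw, mul_zero]
  -- conjugate by `τ`
  have h1 := M.mul_mem (M.mul_mem hτM hM) (M.inv_mem hτM)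
  have e1 : τ * (tv a t * qe u w s) * τ⁻¹ =
      tv a t * qe u (c • w) (c ^ 2 * s + 2 * (c * η)) := by
    calc τ * (tv a t * qe u w s) * τ⁻¹ = (τ * tv a t * τ⁻¹) * (τ * qe u w s * τ⁻¹) := by group
      _ = tv a t * qe u (c • w) (c ^ 2 * s + 2 * (c * η)) := by
          rw [conj_tv, hτa, conj_qe hw, hτu, hη, qe_smul_left (by
            rw [sf_add_right, sf_smul_right, sf_self, hw]; ring), smul_add, smul_smul,
            qe_add_smul (hsw _)]
  rw [e1] at h1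
  have h2 := M.mul_mem (M.inv_mem hM) h1
  have e2 : (tv a t * qe u w s)⁻¹ * (tv a t * qe u (c • w) (c ^ 2 * s + 2 * (c * η))) =
      qe u ((c - 1) • w) (-s + (c ^ 2 * s + 2 * (c * η)) + 0) := by
    calc (tv a t * qe u w s)⁻¹ * (tv a t * qe u (c • w) (c ^ 2 * s + 2 * (c * η)))
        = (qe u w s)⁻¹ * qe u (c • w) (c ^ 2 * s + 2 * (c * η)) := by group
      _ = _ := by
          rw [qe_inv hw, qe_mul (by rw [sf_neg_right, hw, neg_zero]) (hsw _), sf_smul_left,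
            sf_neg_right, sf_self]
          congr 1
          · module
          · ring
  rw [e2] at h2
  have hc3 : c - 1 ≠ 0 := sub_ne_zero.2 hc1
  obtain ⟨x, y, hxy⟩ := P.Bh_line ⟨hsw (c - 1), _, h2⟩
  obtain ⟨x', y', hw'⟩ : ∃ x' y' : F, w = x' • u + y' • a := by
    refine ⟨(c - 1)⁻¹ * x, (c - 1)⁻¹ * y, ?_⟩
    have : w = (c - 1)⁻¹ • ((c - 1) • w) := by rw [smul_smul, inv_mul_cancel₀ hc3, one_smul]
    rw [this, hxy]; module
  have h3 : tv a t * tv u (s + 2 * x') ∈ M := by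
    have h4 := M.mul_mem hM (M.inv_mem (hE y'))
    have e3 : tv a t * qe u w s * (qe u (y' • a) 0)⁻¹ = tv a t * tv u (s + 2 * x') := by
      rw [hw', add_comm (x' • u), qe_add_smul (hsa _), mul_assoc, mul_right_inj,
        mul_inv_eq_iff_eq_mul, tv_mul_qe (hsa _), add_zero]
    rwa [e3] at h4
  have h4 := M.mul_mem (M.inv_mem h3) (M.mul_mem (M.mul_mem hτM h3) (M.inv_mem hτM))
  have e4 : (tv a t * tv u (s + 2 * x'))⁻¹ * (τ * (tv a t * tv u (s + 2 * x')) * τ⁻¹) =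
      tv u ((c ^ 2 - 1) * (s + 2 * x')) := by
    have e5 : τ * (tv a t * tv u (s + 2 * x')) * τ⁻¹ =
        tv a t * tv u (c ^ 2 * (s + 2 * x')) := by
      calc τ * (tv a t * tv u (s + 2 * x')) * τ⁻¹
          = (τ * tv a t * τ⁻¹) * (τ * tv u (s + 2 * x') * τ⁻¹) := by group
        _ = _ := by rw [conj_tv, hτa, conj_tv, hτu, tv_smul]
    rw [e5]
    calc (tv a t * tv u (s + 2 * x'))⁻¹ * (tv a t * tv u (c ^ 2 * (s + 2 * x')))
        = (tv u (s + 2 * x'))⁻¹ * tv u (c ^ 2 * (s + 2 * x')) := by group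
      _ = _ := by
          rw [← tv_neg, tv_mul]
          congr 1; ring
  rw [e4] at h4
  have h5 : (c ^ 2 - 1) * (s + 2 * x') ∈ Yh u M := h4
  rw [hY0, AddSubgroup.mem_bot] at h5
  have h6 := (mul_eq_zero.1 h5).resolve_left (sub_ne_zero.2 hc2)
  rw [h6, tv_zero, mul_one] at h3
  exact h3

/-- There is a centre. -/
theorem exists_Cn (hq4 : 4 ≤ Fintype.card F) (hY0 : Yh u M = ⊥) :
    ∃ a' : Vc l F, a' ≠ 0 ∧ Cn M a' := by
  obtain ⟨c, hc, hc2⟩ := exists_sq_ne_one hq4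
  have hc1 : c ≠ 1 := by rintro rfl; exact hc2 (one_pow 2)
  obtain ⟨ζ, hE⟩ := P.exists_lift0 hY0
  have P' := P.shift ζ
  obtain ⟨τ, hτM, hτu, hτ⟩ := P'.exists_tau3 hY0 hE hc
  obtain ⟨ζ', hτa, hE'⟩ := P'.shift_tau hY0 hE hc hc1 hτM hτu hτ
  have P'' := P'.shift ζ'
  exact ⟨_, P''.a0, fun t => P''.tv_mem3 hY0 hE' hc hc2 hτM hτu hτ hτa t⟩

end Pt

end Cfsg.Agent.MinS
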