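import Cfsg.Agent.MinS.T3b

/-!
# There are no points of the third type
-/

set_option autoImplicit false
set_option linter.unusedSectionVars false

namespace Cfsg.Agent.MinS

open Matrix Cfsg.Agent.ClassSp Cfsg.Agent.LSSp Cfsg.Agent.Mdx

variable {l : Type*} [Fintype l] [DecidableEq l] {F : Type*} [Field F] [Fintype F]
variable {ψ : AddChar F ℂ} {u a : Vc l F} {M : Subgroup (Sp l F)}

theorem map_PP (k : Sp l F) (u : Vc l F) :
    (PP u).map (MulAut.conj k).toMonoidHom = PP (ac k u) := by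
  ext g
  rw [Subgroup.mem_map]
  constructor
  · rintro ⟨p, ⟨c, hc, hp⟩, rfl⟩
    refine ⟨c, hc, ?_⟩
    change ac (k * p * k⁻¹) (ac k u) = c • ac k u
    rw [ac_mul, ac_mul, ac_inv_ac, hp, ac_smul]
  · rintro ⟨c, hc, hg⟩
    refine ⟨k⁻¹ * g * k, ⟨c, hc, ?_⟩, ?_⟩
    · rw [ac_mul, ac_mul, hg, ac_smul, ac_inv_ac]
    · change k * (k⁻¹ * g * k) * k⁻¹ = g
      group

/-- Two point orbits. -/
theorem two_pts {c : Vc l F} (hu : u ≠ 0) (hc : c ≠ 0) (h : ∀ g ∈ M, ∀ α : F, ac g u ≠ α • c) :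
    M.relIndex (PP u) + M.relIndex (PP c) ≤ M.index := by
  obtain ⟨k, hk⟩ := exists_ac hu hc
  have h1 := two_orbits (PP u) M k (by
    intro p hp m hm he
    obtain ⟨α, hα, hp'⟩ := (PP u).inv_mem hp
    have h2 : k = m⁻¹ * p⁻¹ := by
      have := congrArg (fun x => x⁻¹) he
      simpa using this
    apply h m⁻¹ (M.inv_mem hm) α⁻¹
    have h3 : c = α • ac m⁻¹ u := by
      rw [← hk, h2, ac_mul, hp', ac_smul]
    rw [h3, smul_smul, inv_mul_cancel₀ hα, one_smul])
  rwa [Subgroup.relIndex_comap, map_PP, hk] at h1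

theorem index_PP (hu : u ≠ 0) :
    (PP u : Subgroup (Sp l F)).index * (Fintype.card F - 1) + 1 = Nat.card (Vc l F) := by
  classical
  have h1 := Subgroup.relIndex_mul_index (fixs_le_PP u)
  have h2 := rel_Lam hu ⊤
  rw [top_inf_eq, card_Lam_top hu] at h2
  rw [h2] at h1
  have h3 : (fixs u).index + 1 = Nat.card (Vc l F) := by
    rw [← Subgroup.relIndex_top_right, relIndex_fixs, ← Finite.card_option]
    apply Nat.card_congr
    refine Equiv.ofBijective (fun o : Option _ => (match o with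
      | none => (0 : Vc l F)
      | some v => v.1 : Vc l F)) ⟨?_, ?_⟩
    · intro o o' h
      rcases o with _ | v <;> rcases o' with _ | v'
      · rfl
      · exfalso
        obtain ⟨g, -, hg⟩ := v'.2
        have h' : (0 : Vc l F) = v'.1 := h
        rw [← hg] at h'
        exact ac_ne_zero hu h'.symm
      · exfalso
        obtain ⟨g, -, hg⟩ := v.2
        have h' : v.1 = (0 : Vc l F) := h
        rw [← hg] at h'
        exact ac_ne_zero hu h'
      · exact congrArg some (Subtype.ext h)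
    · intro v
      by_cases hv : v = 0
      · exact ⟨none, hv.symm⟩
      · obtain ⟨g, hg⟩ := exists_ac hu hv
        exact ⟨some ⟨v, g, Subgroup.mem_top g, hg⟩, rfl⟩
  rw [mul_comm, h1, h3]

theorem full_QQ (hψ : ψ ≠ 1) (hq : 3 ≤ Fintype.card F) (hm : Fintype.card l = 2) {c : Vc l F}
    (hc0 : c ≠ 0) (hc : Cn M c) (hk : M.relIndex (PP c) ≤ Fintype.card F) {w : Vc l F}
    (hw : sf c w = 0) (s : F) : qe c w s ∈ M := by
  have hII : TII ψ c M := by
    intro a haD
    by_contra hcon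
    push Not at hcon
    have h1 := orbit_ineq hψ hc0 haD hcon
    rw [pu_num hm hc0] at h1
    have h2 := rel_QQ hψ hc0 M
    rw [Cn_iff.1 hc, AddSubgroup.card_top, Nat.card_eq_fintype_card] at h2
    have h3 := index_ge_fix c M
    have h4 : M.relIndex (fixs c) ≤ M.relIndex (PP c) :=
      Subgroup.relIndex_le_of_le_right (fixs_le_PP c) (rel_ne_zero _ _)
    have hf : 1 ≤ (KK c M).relIndex (fixs c ⊓ fixs a) :=
      Nat.one_le_iff_ne_zero.2 (rel_ne_zero _ _)
    have hr : 1 ≤ (KK c M).relIndex (fixs c) := Nat.one_le_iff_ne_zero.2 (rel_ne_zero _ _)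
    have hb : 1 ≤ M.relIndex (QQ c) := Nat.one_le_iff_ne_zero.2 (rel_ne_zero _ _)
    rw [← h2] at h1
    have h5 : M.relIndex (QQ c) * (KK c M).relIndex (fixs c) ≤ Fintype.card F :=
      h3.trans (h4.trans hk)
    set q := Fintype.card F with hqd
    set b := M.relIndex (QQ c) with hbd
    set r := (KK c M).relIndex (fixs c) with hrd
    have hq3 : q ≤ q ^ 3 := Nat.le_self_pow (by norm_num) _
    have hbq : q ≤ b * q := Nat.le_mul_of_pos_left _ hb
    zify [hq3, hbq] at h1 h5 hf hr hb hq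
    have h6 : (q : ℤ) ^ 3 - q ≤ r * (b * q - q) := by
      refine le_trans ?_ h1
      have : (0 : ℤ) ≤ (q : ℤ) ^ 3 - q := by
        have : (q : ℤ) ≤ (q : ℤ) ^ 3 := by exact_mod_cast hq3
        linarith
      nlinarith
    have h7 : (r : ℤ) * (b * q - q) = q * (b * r) - r * q := by ring
    rw [h7] at h6
    have h8 : (q : ℤ) * (b * r) ≤ q * q := mul_le_mul_of_nonneg_left h5 (by linarith)
    nlinarith
  obtain ⟨-, s', hs'⟩ := TII_Bh hψ hII (sf_comm0.1 hw)
  have h1 := M.mul_mem (hc (s - s')) hs'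
  rwa [tv_mul_qe hw, sub_add_cancel] at h1

/-- Main case: `Y = 0`. -/
theorem III_zero (P : Pt ψ u M a) (hq4 : 4 ≤ Fintype.card F) (hY0 : Yh u M = ⊥)
    (hk : M.index * (Fintype.card F - 1) + Fintype.card F ≤ Nat.card (Vc l F))
    (hnu : ¬ Cn M u) : False := by
  classical
  have hψ := P.hψ
  have hm := P.hm
  have hq := P.hq
  have hk4 := hk
  rw [card_Vc, hm] at hk4
  obtain ⟨c₀, hc₀, hC₀⟩ := P.exists_Cn hq4 hY0
  have hsmall : ∀ c : Vc l F, c ≠ 0 → Cn M c → M.relIndex (PP c) ≤ Fintype.card F := by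
    intro c hc hC
    have h1 := two_pts (M := M) P.hu hc (by
      intro g hg α h
      apply hnu
      rw [← Cn_ac_iff hg, h]
      exact Cn_smul hC α)
    have h2 := P.k_ge hY0
    obtain ⟨p, hp⟩ : ∃ p, Fintype.card F = p + 1 := ⟨Fintype.card F - 1, by omega⟩
    rw [hp] at h2 hk4 ⊢
    rw [Nat.add_sub_cancel] at hk4
    by_contra hlt
    push Not at hlt
    have h3 : (p + 1) * (p + 1) * (p + 1 + 1) + (p + 1 + 1) ≤ M.index := by omega
    have h4 : ((p + 1) * (p + 1) * (p + 1 + 1) + (p + 1 + 1)) * p + (p + 1) ≤ (p + 1) ^ (2 * 2) :=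
      (Nat.add_le_add_right (Nat.mul_le_mul_right _ h3) _).trans hk4
    ring_nf at h4
    omega
  have hQQ : ∀ c : Vc l F, c ≠ 0 → Cn M c → ∀ w, sf c w = 0 → ∀ s, qe c w s ∈ M :=
    fun c hc hC w hw s => full_QQ hψ hq hm hc hC (hsmall c hc hC) hw s
  -- spreading
  have hspread : ∀ c x : Vc l F, Cn M c → Cn M x → sf x c ≠ 0 → ∀ y, sf y c ≠ 0 → Cn M y := by
    intro c x hC hX hxc y hyc
    have hc0 := sf_ne_zero_right hxc
    set κ := sf x c with hκ
    set y' := (κ / sf y c) • y with hy'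
    have hy'c : sf y' c = κ := by rw [hy', sf_smul_left, div_mul_cancel₀ _ hyc]
    set w := κ⁻¹ • (y' - x) with hw
    have hwc : sf w c = 0 := by rw [hw, sf_smul_left, sf_sub_left, hy'c, ← hκ, sub_self, mul_zero]
    have h1 := hQQ c hc0 hC w (sf_comm0.1 hwc) (-(sf x w / κ))
    have h2 : ac (qe c w (-(sf x w / κ))) x = y' := by
      rw [ac_qe (sf_comm0.1 hwc), ← hκ]
      have e1 : sf x w + -(sf x w / κ) * κ = 0 := by
        rw [neg_mul, div_mul_cancel₀ _ hxc]; ring
      rw [e1, zero_smul, add_zero, hw, smul_smul, mul_inv_cancel₀ hxc, one_smul]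
      module
    have h3 := Cn_ac h1 hX
    rw [h2] at h3
    have h4 := Cn_smul h3 (κ / sf y c)⁻¹
    rwa [hy', smul_smul, inv_mul_cancel₀ (div_ne_zero hxc hyc), one_smul] at h4
  have hperp : ∀ c x : Vc l F, Cn M c → Cn M x → sf x c = 0 := by
    intro c x hC hX
    by_contra hxc
    have hc0 := sf_ne_zero_right hxc
    have hu0 := P.hu
    obtain ⟨y, hy1, hy2⟩ := exists_sf_ne_zero_both hc0 hu0
    have hY := hspread c x hC hX hxc y (sf_ne_comm.1 hy1)
    exact hnu (hspread y c hY hC hy1 u (sf_ne_comm.1 hy2))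
  by_cases hone : ∀ c : Vc l F, Cn M c → ∃ α : F, c = α • c₀
  · have hle : M ≤ PP c₀ := by
      intro g hg
      obtain ⟨α, hα⟩ := hone _ (Cn_ac hg hC₀)
      refine ⟨α, ?_, hα⟩
      rintro rfl
      rw [zero_smul] at hα
      exact ac_ne_zero hc₀ hα
    have h1 := Subgroup.index_antitone hle
    have h2 := index_PP (F := F) hc₀
    have h3 := Nat.mul_le_mul_right (Fintype.card F - 1) h1
    omega
  · push Not at hone
    obtain ⟨c', hC', hc'⟩ := hone
    have hcc : sf c' c₀ = 0 := hperp _ _ hC₀ hC'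
    have h1 := two_chains (F := fixs c₀) (K := M ⊓ fixs c₀) (A := fixs c') inf_le_right
    rw [rel_inf_right] at h1
    have h2 := orbit_fixs hc₀ hcc hc'
    have h3 := card_diff hc₀ (pu c₀).toAddSubgroup (fun c => by
      rw [Submodule.mem_toAddSubgroup, mem_pu, sf_smul_left, sf_self, mul_zero])
    rw [pu_num hm hc₀, ← h2] at h3
    have h4 := card_diff hc₀ (Submodule.span F {c₀, c'}).toAddSubgroup (fun c => by
      rw [Submodule.mem_toAddSubgroup, Submodule.mem_span_pair]
      exact ⟨c, 0, by rw [zero_smul, add_zero]⟩)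
    rw [card_pair hc₀ hc'] at h4
    have h5 : (fixs c').relIndex (M ⊓ fixs c₀) ≤
        Nat.card {v : Vc l F // v ∈ (Submodule.span F {c₀, c'}).toAddSubgroup ∧
          ∀ c : F, v ≠ c • c₀} := by
      rw [relIndex_fixs]
      refine Nat.card_le_card_of_injective (fun v => ⟨v.1, ?_, ?_⟩) ?_
      · obtain ⟨g, hg, h⟩ := v.2
        rw [← h]
        obtain ⟨x, y, hxy⟩ := perp_line hm hc₀ hc' hcc (hperp _ _ hC₀ (Cn_ac hg.1 hC'))
          (hperp _ _ hC' (Cn_ac hg.1 hC'))
        rw [Submodule.mem_toAddSubgroup, Submodule.mem_span_pair]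
        exact ⟨x, y, hxy.symm⟩
      · intro c hc
        obtain ⟨g, hg, h⟩ := v.2
        apply hc' c
        rw [← ac_inv_ac g c', h, hc, ac_smul, ac_inv_fix hg.2]
      · intro v w h
        exact Subtype.ext (congrArg (fun z => z.1) h)
    have hf : 1 ≤ (M ⊓ fixs c₀).relIndex (fixs c₀ ⊓ fixs c') :=
      Nat.one_le_iff_ne_zero.2 (rel_ne_zero _ _)
    have h6 : M.relIndex (fixs c₀) ≤ Fintype.card F :=
      (Subgroup.relIndex_le_of_le_right (fixs_le_PP c₀) (rel_ne_zero _ _)).trans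
        (hsmall c₀ hc₀ hC₀)
    set O := Nat.card {v : Vc l F // v ∈ (Submodule.span F {c₀, c'}).toAddSubgroup ∧
          ∀ c : F, v ≠ c • c₀} with hO
    have h7 : (fixs c').relIndex (fixs c₀) ≤ Fintype.card F * O := by
      calc (fixs c').relIndex (fixs c₀) = (fixs c').relIndex (fixs c₀) * 1 := (mul_one _).symm
        _ ≤ _ := Nat.mul_le_mul_left _ hf
        _ = _ := h1.symm
        _ ≤ Fintype.card F * O := Nat.mul_le_mul h6 h5
    have h8 : Fintype.card F ^ 3 ≤ Fintype.card F * O + Fintype.card F := by omega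
    have h9 : Fintype.card F * O + Fintype.card F * Fintype.card F =
        Fintype.card F * (Fintype.card F * Fintype.card F) := by rw [← mul_add, h4]
    have h10 : Fintype.card F ^ 3 = Fintype.card F * (Fintype.card F * Fintype.card F) := by ring
    have h11 : Fintype.card F * Fintype.card F ≤ Fintype.card F := by omega
    have h12 : Fintype.card F * 3 ≤ Fintype.card F * Fintype.card F := Nat.mul_le_mul_left _ hq
    omega

theorem three_num {q k ku kb A r : ℤ} (hq : 3 ≤ q) (h1 : (q - 1) * ((q * q) * r) ≤ ku * A)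
    (h2 : (q + 3) * A + 2 * q ≤ 2 * q * q) (hku : 0 ≤ ku) (hr : q + 1 ≤ r)
    (hkb : q ^ 3 ≤ kb) (hk : k * (q - 1) + q ≤ q ^ 4) (hs : ku + kb ≤ k) : False := by
  have h4 : (q + 3) * (ku * A) ≤ ku * (2 * q * (q - 1)) := by nlinarith
  have h3 : (q * q) * (q + 1) ≤ (q * q) * r := mul_le_mul_of_nonneg_left hr (by nlinarith)
  have h6 : (q + 3) * ((q - 1) * ((q * q) * (q + 1))) ≤ (q + 3) * (ku * A) :=
    mul_le_mul_of_nonneg_left ((mul_le_mul_of_nonneg_left h3 (by linarith)).trans h1)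
      (by linarith)
  have h7 : (q * (q - 1)) * (q * (q + 1) * (q + 3)) ≤ (q * (q - 1)) * (2 * ku) := by linarith
  have h8 : q * (q + 1) * (q + 3) ≤ 2 * ku :=
    le_of_mul_le_mul_left h7 (mul_pos (by linarith) (by linarith))
  have h9 : (q * (q + 1) * (q + 3) + 2 * q ^ 3) * (q - 1) ≤ 2 * k * (q - 1) :=
    mul_le_mul_of_nonneg_right (by linarith) (by linarith)
  have h10 : (q * (q + 1) * (q + 3) + 2 * q ^ 3) * (q - 1) + 2 * q ≤ 2 * q ^ 4 := by linarith
  have h11 : q * (q ^ 3 + q ^ 2 - q - 1) ≤ 0 := by nlinarith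
  have h12 : 0 < q ^ 3 + q ^ 2 - q - 1 := by nlinarith [mul_pos (by linarith : (0:ℤ) < q) (by linarith : (0:ℤ) < q)]
  nlinarith

/-- There are no points of the third type. -/
theorem III_absurd (P : Pt ψ u M a) (hq4 : 4 ≤ Fintype.card F)
    (hk : M.index * (Fintype.card F - 1) + Fintype.card F ≤ Nat.card (Vc l F))
    (hSA : ∀ v : Vc l F, v ≠ 0 → ¬ Cn M v → SA ψ v M) (hnu : ¬ Cn M u) : False := by
  by_cases hY0 : Yh u M = ⊥
  · exact III_zero P hq4 hY0 hk hnu
  obtain ⟨s₀, hs₀, hs₀0⟩ : ∃ s ∈ Yh u M, s ≠ 0 := by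
    by_contra h
    push Not at h
    exact hY0 ((AddSubgroup.eq_bot_iff_forall _).2 h)
  have hψ := P.hψ
  have hm := P.hm
  have hq := P.hq
  have hclaim : ∀ b : Vc l F, sf b u = 0 → sf b a ≠ 0 → Yh b M = ⊥ := by
    intro b hbu hba
    rw [AddSubgroup.eq_bot_iff_forall]
    intro s hs
    have haB : a ∈ Bh u M := by
      have := P.mem_Bh 0 1
      rwa [zero_smul, zero_add, one_smul] at this
    have h1 := Bh_inv hs (ac_tv_fix (sf_comm0.1 hbu) s) haB
    have h2 := P.perp h1
    rw [ac_tv, sf_add_left, sf_smul_left, sf_self, zero_add] at h2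
    have h3 := (mul_eq_zero.1 h2).resolve_right hba
    exact (mul_eq_zero.1 h3).resolve_right (sf_ne_comm.1 hba)
  obtain ⟨b, hbu, hab⟩ := exists_perp P.hu P.hIII.2.1
  have hba := sf_ne_comm.1 hab
  have hYb := hclaim b hbu hba
  have hb0 : b ≠ 0 := sf_ne_zero_right hab
  have hnb : ¬ Cn M b := by
    intro h
    rw [Cn_iff, hYb] at h
    exact bot_ne_top h
  have hYb' : Yh b M ≠ ⊤ := by rw [hYb]; exact bot_ne_top
  have hkb : Small b M := le_trans (Nat.add_le_add_right (Nat.mul_le_mul_right _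
    (rel_le_index M (PP b))) _) hk
  rcases trichotomy hψ (hSA b hb0 hnb) hb0 with hI | hII | ⟨a', hIII⟩
  · have h1 := two_pts (M := M) P.hu hb0 (by
      intro g hg α h
      have h2 := M.mul_mem (M.mul_mem hg hs₀) (M.inv_mem hg)
      rw [conj_tv, h, tv_smul] at h2
      have h3 : α ^ 2 * s₀ ∈ Yh b M := h2
      rw [hYb, AddSubgroup.mem_bot] at h3
      have h4 := (mul_eq_zero.1 h3).resolve_right hs₀0
      rw [pow_eq_zero_iff (by norm_num)] at h4
      rw [h4, zero_smul] at h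
      exact ac_ne_zero P.hu h)
    have h2 : Fintype.card F ^ 3 ≤ M.relIndex (PP b) := by
      have hD : Nat.card (Dh ψ b M) = Fintype.card F ^ 3 := by
        rw [← pu_num hm hb0]
        have : Dh ψ b M = (pu b).toAddSubgroup := by
          ext x
          exact ⟨fun h => Dh_perp hψ h, fun h => hI x h⟩
        rw [this]
      have h7 := main_ineq hψ hb0 M
      rw [hD, hYb, AddSubgroup.card_bot, mul_one] at h7
      have hL := card_Lam_le_top b M
      have hr : 1 ≤ (KK b M).relIndex (fixs b) := Nat.one_le_iff_ne_zero.2 (rel_ne_zero _ _)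
      have h8 : (Fintype.card F - 1) * Fintype.card F ^ 3 ≤
          (Fintype.card F - 1) * M.relIndex (PP b) := by
        calc (Fintype.card F - 1) * Fintype.card F ^ 3
            ≤ (Fintype.card F - 1) * (Fintype.card F ^ 3 * (KK b M).relIndex (fixs b)) :=
              Nat.mul_le_mul_left _ (Nat.le_mul_of_pos_right _ hr)
          _ ≤ M.relIndex (PP b) * Nat.card (Lam b M) := h7
          _ ≤ M.relIndex (PP b) * (Fintype.card F - 1) := Nat.mul_le_mul_left _ (by omega)
          _ = _ := mul_comm _ _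
      exact Nat.le_of_mul_le_mul_left h8 (by omega)
    have h7 := main_ineq P.hψ P.hu M
    rw [P.card_Dh] at h7
    have h8 := zz (u := u) (M := M) P.hq P.hY
    have hr := P.r_ge
    have hk' := hk
    rw [card_Vc, P.hm] at hk'
    have hq1 : 1 ≤ Fintype.card F := by omega
    zify [hq1] at h7 h8 hr h1 h2 hk' hq
    norm_num at hk'
    exact three_num hq h7 h8 (Int.natCast_nonneg _) hr h2 hk' h1
  · have hub : ∀ c : F, u ≠ c • b := by
      intro c hc
      by_cases hc0 : c = 0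
      · rw [hc0, zero_smul] at hc
        exact P.hu hc
      · apply hba
        have h1 := P.ua
        rw [hc, sf_smul_left] at h1
        exact (mul_eq_zero.1 h1).resolve_left hc0
    obtain ⟨w, hwb, huw⟩ := exists_scaled hb0 hub 1
    obtain ⟨s, hs⟩ := outII_of hψ hII w hwb
    have h1 : ac (qe b w s) u = u + b := by
      rw [ac_qe_perp (sf_comm0.1 hwb) s (sf_comm0.1 hbu), huw, one_smul]
    have h2 := M.mul_mem (M.mul_mem hs hs₀) (M.inv_mem hs)
    rw [conj_tv, h1] at h2
    have h3 : s₀ ∈ Yh (u + b) M := h2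
    rw [hclaim (u + b) (by rw [sf_add_left, sf_self, hbu, add_zero]) (by
      rw [sf_add_left, P.ua, zero_add]; exact hba), AddSubgroup.mem_bot] at h3
    exact hs₀0 h3
  · exact III_zero ⟨hψ, hq, hm, hb0, hSA b hb0 hnb, hYb', hkb, hIII⟩ hq4 hYb hk hnb

end Cfsg.Agent.MinS
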