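import Cfsg.Agent.MinS.Loc

/-!
# Local analysis at a point: types of points
-/

set_option autoImplicit false
set_option linter.unusedSectionVars false

namespace Cfsg.Agent.MinS

open Matrix Cfsg.Agent.ClassSp Cfsg.Agent.LSSp Cfsg.Agent.Mdx

variable {l : Type*} [Fintype l] [DecidableEq l] {F : Type*} [Field F] [Fintype F]

section Torus

/-- Multipliers of an additive subgroup. -/
def Lm (Y : AddSubgroup F) : Type _ := {d : F // d ≠ 0 ∧ ∀ s ∈ Y, d * s ∈ Y}

instance (Y : AddSubgroup F) : Finite (Lm Y) := by unfold Lm; infer_instance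

theorem Lm_dual {Y : AddSubgroup F} (hY : Y ≠ ⊤) :
    (Nat.card (Lm Y) + 1) * Nat.card Y ≤ Fintype.card F := by
  classical
  obtain ⟨s₀, hs₀⟩ : ∃ s, s ∉ Y := by
    by_contra h
    push Not at h
    exact hY (eq_top_iff.2 fun s _ => h s)
  have hbij : ∀ d : F, d ≠ 0 → (∀ s ∈ Y, d * s ∈ Y) → ∀ t : F, d * t ∈ Y → t ∈ Y := by
    intro d hd hdX t ht
    let f : Y → Y := fun s => ⟨d * s, hdX s s.2⟩
    have hf : Function.Injective f := by
      intro x y hxy
      exact Subtype.ext (mul_left_cancel₀ hd (congrArg Subtype.val hxy))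
    obtain ⟨⟨t', ht'⟩, h⟩ := Finite.surjective_of_injective hf ⟨d * t, ht⟩
    have h1 : d * t' = d * t := congrArg Subtype.val h
    rw [← mul_left_cancel₀ hd h1]
    exact ht'
  let g : Option (Lm Y) × Y → F := fun p =>
    match p with
    | (none, s) => s.1
    | (some d, s) => d.1 * s₀ + s.1
  have hg : Function.Injective g := by
    rintro ⟨o, s⟩ ⟨o', s'⟩ hss
    rcases o with _ | d <;> rcases o' with _ | d'
    · have h1 : s.1 = s'.1 := hss
      rw [Subtype.ext h1]
    · exfalso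
      have h1 : s.1 = d'.1 * s₀ + s'.1 := hss
      apply hs₀
      apply hbij d'.1 d'.2.1 d'.2.2
      have : d'.1 * s₀ = s.1 - s'.1 := by rw [h1]; ring
      rw [this]
      exact Y.sub_mem s.2 s'.2
    · exfalso
      have h1 : d.1 * s₀ + s.1 = s'.1 := hss
      apply hs₀
      apply hbij d.1 d.2.1 d.2.2
      have : d.1 * s₀ = s'.1 - s.1 := by rw [← h1]; ring
      rw [this]
      exact Y.sub_mem s'.2 s.2
    · have h1 : d.1 * s₀ + s.1 = d'.1 * s₀ + s'.1 := hss
      by_cases hdd : d.1 = d'.1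
      · have h2 : d = d' := Subtype.ext hdd
        subst h2
        rw [add_right_inj] at h1
        rw [Subtype.ext h1]
      · exfalso
        apply hs₀
        apply hbij (d.1 - d'.1) (sub_ne_zero.2 hdd)
        · intro t ht
          rw [sub_mul]
          exact Y.sub_mem (d.2.2 t ht) (d'.2.2 t ht)
        · have : (d.1 - d'.1) * s₀ = s'.1 - s.1 := by linear_combination h1
          rw [this]
          exact Y.sub_mem s'.2 s.2
  have h1 := Nat.card_le_card_of_injective g hg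
  rw [Nat.card_prod, Finite.card_option, Nat.card_eq_fintype_card (α := F)] at h1
  exact h1

theorem Lm_le {Y : AddSubgroup F} (hY : Y ≠ ⊥) : Nat.card (Lm Y) + 1 ≤ Nat.card Y := by
  obtain ⟨y, hy, hy0⟩ : ∃ y ∈ Y, y ≠ 0 := by
    by_contra h
    push Not at h
    exact hY (AddSubgroup.eq_bot_iff_forall _ |>.2 h)
  rw [← Finite.card_option]
  refine Nat.card_le_card_of_injective
    (fun o : Option (Lm Y) => (match o with
      | none => (0 : Y)
      | some d => ⟨d.1 * y, d.2.2 y hy⟩ : Y)) ?_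
  rintro (_ | d) (_ | d') h
  · rfl
  · exact absurd (congrArg Subtype.val h).symm (mul_ne_zero d'.2.1 hy0)
  · exact absurd (congrArg Subtype.val h) (mul_ne_zero d.2.1 hy0)
  · have h1 : d.1 * y = d'.1 * y := congrArg Subtype.val h
    rw [Subtype.ext (mul_right_cancel₀ hy0 h1)]

theorem two_le_Lm (Y : AddSubgroup F) (h2 : (2 : F) ≠ 0) : 2 ≤ Nat.card (Lm Y) := by
  classical
  let a : Lm Y := ⟨1, one_ne_zero, fun s hs => by rwa [one_mul]⟩
  let b : Lm Y := ⟨-1, neg_ne_zero.2 one_ne_zero, fun s hs => by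
    rw [neg_one_mul]; exact Y.neg_mem hs⟩
  have hab : a ≠ b := by
    intro h
    have h1 : (1 : F) = -1 := congrArg Subtype.val h
    apply h2
    linear_combination h1
  have : Fintype (Lm Y) := Fintype.ofFinite _
  have h1 : ({a, b} : Finset (Lm Y)).card = 2 := Finset.card_pair hab
  rw [Nat.card_eq_fintype_card, ← h1]
  exact Finset.card_le_univ _

variable {u : Vc l F} {M : Subgroup (Sp l F)}

theorem sq_mul_mem {c : F} {g : Sp l F} (hg : g ∈ M) (h : ac g u = c • u) {s : F}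
    (hs : s ∈ Yh u M) : c ^ 2 * s ∈ Yh u M := by
  have h1 := M.mul_mem (M.mul_mem hg hs) (M.inv_mem hg)
  rwa [conj_tv, h, tv_smul] at h1

theorem card_Lam_le (u : Vc l F) (M : Subgroup (Sp l F)) :
    Nat.card (Lam u M) ≤ 2 * Nat.card (Lm (Yh u M)) := by
  classical
  have : Fintype (Lam u M) := Fintype.ofFinite _
  have : Fintype (Lm (Yh u M)) := Fintype.ofFinite _
  let f : Lam u M → Lm (Yh u M) := fun c => ⟨c.1 ^ 2, pow_ne_zero _ c.2.1, fun s hs => by
    obtain ⟨g, hg, h⟩ := c.2.2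
    exact sq_mul_mem hg h hs⟩
  rw [Nat.card_eq_fintype_card, Nat.card_eq_fintype_card]
  have h1 := Finset.card_le_mul_card_image (s := (Finset.univ : Finset (Lam u M))) (f := f) 2 (by
    intro a ha
    obtain ⟨c, -, rfl⟩ := Finset.mem_image.1 ha
    have h2 : ∀ x ∈ (Finset.univ.filter fun x => f x = f c), x = c ∨ x.1 = -c.1 := by
      intro x hx
      have h3 : x.1 ^ 2 = c.1 ^ 2 := congrArg Subtype.val (Finset.mem_filter.1 hx).2
      rcases sq_eq_sq_iff_eq_or_eq_neg.1 h3 with h4 | h4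
      · exact Or.inl (Subtype.ext h4)
      · exact Or.inr h4
    by_contra hcon
    push Not at hcon
    obtain ⟨x, y, z, hx, hy, hz, hxy, hxz, hyz⟩ := Finset.two_lt_card_iff.1 hcon
    rcases h2 x hx with h3 | h3 <;> rcases h2 y hy with h4 | h4 <;> rcases h2 z hz with h5 | h5
    · exact hxy (h3.trans h4.symm)
    · exact hxy (h3.trans h4.symm)
    · exact hxz (h3.trans h5.symm)
    · exact hyz (Subtype.ext (h4.trans h5.symm))
    · exact hyz (h4.trans h5.symm)
    · exact hxz (Subtype.ext (h3.trans h5.symm))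
    · exact hxy (Subtype.ext (h3.trans h4.symm))
    · exact hxy (Subtype.ext (h3.trans h4.symm)))
  rw [Finset.card_univ] at h1
  exact h1.trans (Nat.mul_le_mul_left _ (Finset.card_le_univ _))

theorem card_Lam_le' (u : Vc l F) (M : Subgroup (Sp l F)) (h2 : (2 : F) = 0) :
    Nat.card (Lam u M) ≤ Nat.card (Lm (Yh u M)) := by
  refine Nat.card_le_card_of_injective (fun c => ⟨c.1 ^ 2, pow_ne_zero _ c.2.1, fun s hs => by
    obtain ⟨g, hg, h⟩ := c.2.2
    exact sq_mul_mem hg h hs⟩) ?_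
  intro c d h
  have h3 : c.1 ^ 2 = d.1 ^ 2 := congrArg Subtype.val h
  rcases sq_eq_sq_iff_eq_or_eq_neg.1 h3 with h4 | h4
  · exact Subtype.ext h4
  · apply Subtype.ext
    rw [h4]
    linear_combination (-d.1) * h2

theorem card_Lam_le_top (u : Vc l F) (M : Subgroup (Sp l F)) :
    Nat.card (Lam u M) + 1 ≤ Fintype.card F := by
  rw [← Finite.card_option, ← Nat.card_eq_fintype_card]
  refine Nat.card_le_card_of_injective (fun o : Option (Lam u M) => (match o with
    | none => (0 : F)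
    | some d => d.1 : F)) ?_
  rintro (_ | d) (_ | d') h
  · rfl
  · exact absurd h.symm d'.2.1
  · exact absurd h d.2.1
  · rw [Subtype.ext h]

theorem card_Lam_pos (u : Vc l F) (M : Subgroup (Sp l F)) : 1 ≤ Nat.card (Lam u M) := by
  have : Nonempty (Lam u M) := ⟨⟨1, one_ne_zero, 1, M.one_mem, by rw [ac_one, one_smul]⟩⟩
  exact Nat.card_pos

theorem zz_num {q L y a : ℕ} (hq : 3 ≤ q) (hy : 1 ≤ y)
    (h : (y = 1 ∧ a + 1 ≤ q) ∨ (a ≤ L ∧ (L + 1) * y ≤ q ∧ L + 1 ≤ y ∧ 2 ≤ y) ∨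
      (a ≤ 2 * L ∧ 2 ≤ L ∧ (L + 1) * y ≤ q ∧ L + 1 ≤ y)) :
    (q + 3) * (a * y) + 2 * q ≤ 2 * q * q := by
  rcases h with ⟨rfl, h⟩ | ⟨h1, h2, h3, h4⟩ | ⟨h1, h2, h3, h4⟩
  · obtain ⟨r, rfl⟩ : ∃ r, q = r + 3 := ⟨q - 3, by omega⟩
    have : a ≤ r + 2 := by omega
    have := Nat.mul_le_mul_left (r + 3 + 3) this
    nlinarith
  · have h5 : a * y ≤ L * y := Nat.mul_le_mul_right _ h1
    have h6 : a * y + 2 ≤ q := by nlinarith
    obtain ⟨r, rfl⟩ : ∃ r, q = r + 3 := ⟨q - 3, by omega⟩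
    have : a * y ≤ r + 1 := by omega
    have := Nat.mul_le_mul_left (r + 3 + 3) this
    nlinarith
  · have h5 : a * y ≤ 2 * L * y := Nat.mul_le_mul_right _ h1
    have h7 : L * y + y ≤ q := by linarith
    rcases Nat.lt_or_ge y 4 with hy4 | hy4
    · have hy3 : y = 3 := by omega
      have hL : L = 2 := by omega
      subst hy3 hL
      obtain ⟨r, rfl⟩ : ∃ r, q = r + 9 := ⟨q - 9, by omega⟩
      have : a * 3 ≤ 12 := by omega
      have := Nat.mul_le_mul_left (r + 9 + 3) this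
      nlinarith
    · obtain ⟨r, rfl⟩ : ∃ r, q = r + 4 := ⟨q - 4, by omega⟩
      have : a * y ≤ 2 * r := by nlinarith
      have := Nat.mul_le_mul_left (r + 4 + 3) this
      nlinarith

/-- The torus inequality. -/
theorem zz (hq : 3 ≤ Fintype.card F) (hY : Yh u M ≠ ⊤) :
    (Fintype.card F + 3) * (Nat.card (Lam u M) * Nat.card (Yh u M)) + 2 * Fintype.card F ≤
      2 * Fintype.card F * Fintype.card F := by
  have hy : 1 ≤ Nat.card (Yh u M) := Nat.card_pos
  by_cases hb : Yh u M = ⊥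
  · apply zz_num (L := 0) hq hy
    left
    refine ⟨?_, card_Lam_le_top u M⟩
    rw [hb]
    exact AddSubgroup.card_bot
  · have h1 := Lm_dual hY
    have h2 := Lm_le hb
    by_cases h : (2 : F) = 0
    · apply zz_num (L := Nat.card (Lm (Yh u M))) hq hy
      right; left
      refine ⟨card_Lam_le' u M h, h1, h2, ?_⟩
      by_contra hlt
      apply hb
      rw [← AddSubgroup.card_eq_one]
      omega
    · apply zz_num (L := Nat.card (Lm (Yh u M))) hq hy
      right; right
      exact ⟨card_Lam_le u M, two_le_Lm _ h, h1, h2⟩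

end Torus

section StepA

theorem stepA_num {q Q k a d r f : ℤ} (hq : 3 ≤ q) (hQ : q ^ 3 ≤ Q)
    (h1 : (q - 1) * (d * r) ≤ k * a) (h2 : (q + 3) * a + 2 * q ≤ 2 * q * q)
    (hk : k * (q - 1) + q ≤ q * Q) (hk0 : 0 ≤ k) (hr : 1 ≤ r)
    (hf : 2 ≤ f) (h3 : f * (Q - q) ≤ r * (d - q)) : False := by
  have hQq : 0 < Q - q := by nlinarith [sq_nonneg q, mul_pos (by linarith : (0 : ℤ) < q) (by linarith : (0 : ℤ) < q)]
  have h4 : 2 * (Q - q) + q ≤ d * r := by nlinarith
  have h5 : (q + 3) * (k * a) ≤ k * (2 * q * (q - 1)) := by nlinarith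
  have h6 : k * (2 * q * (q - 1)) ≤ 2 * q * (q * Q - q) := by nlinarith
  have h7 : (q + 3) * ((q - 1) * (d * r)) ≤ (q + 3) * (k * a) :=
    mul_le_mul_of_nonneg_left h1 (by linarith)
  have h8 : (q + 3) * ((q - 1) * (2 * (Q - q) + q)) ≤ (q + 3) * ((q - 1) * (d * r)) :=
    mul_le_mul_of_nonneg_left (mul_le_mul_of_nonneg_left h4 (by linarith)) (by linarith)
  have h9 : (q + 3) * ((q - 1) * (2 * (Q - q) + q)) ≤ 2 * q * (q * Q - q) := by linarith
  have h10 : (4 * q - 6) * Q - q ^ 3 + 3 * q ≤ 0 := by nlinarith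
  nlinarith [mul_le_mul_of_nonneg_left hQ (by linarith : (0 : ℤ) ≤ 4 * q - 6), pow_pos (by linarith : (0 : ℤ) < q) 3]

variable {ψ : AddChar F ℂ} {u : Vc l F} {M : Subgroup (Sp l F)}

/-- `k(q-1) ≤ q^{2m} - q`. -/
def Small (u : Vc l F) (M : Subgroup (Sp l F)) : Prop :=
  M.relIndex (PP u) * (Fintype.card F - 1) + Fintype.card F ≤ Nat.card (Vc l F)

theorem q3_le (hm : 2 ≤ Fintype.card l) (hu : u ≠ 0) :
    Fintype.card F ^ 3 ≤ Nat.card (pu u).toAddSubgroup := by
  have h1 := card_pu hu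
  have h2 : Fintype.card F ^ 4 ≤ Nat.card (Vc l F) := by
    rw [card_Vc]
    exact Nat.pow_le_pow_right Fintype.card_pos (by omega)
  have h3 : Fintype.card F * Fintype.card F ^ 3 ≤ Fintype.card F * Nat.card (pu u).toAddSubgroup := by
    rw [h1, ← pow_succ']; exact h2
  exact Nat.le_of_mul_le_mul_left h3 Fintype.card_pos

/-- Step A. -/
theorem stepA (hψ : ψ ≠ 1) (hq : 3 ≤ Fintype.card F) (hm : 2 ≤ Fintype.card l) (hu : u ≠ 0)
    (hY : Yh u M ≠ ⊤) (hk : Small u M) {a : Vc l F} (haD : a ∈ Dh ψ u M)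
    (ha : ∀ c : F, a ≠ c • u) : ∀ g : Sp l F, ac g u = u → ac g a = a → g ∈ KK u M := by
  have key : (KK u M).relIndex (fixs u ⊓ fixs a) = 1 := by
    by_contra hne
    have hf : 2 ≤ (KK u M).relIndex (fixs u ⊓ fixs a) := by
      have := rel_ne_zero (KK u M) (fixs u ⊓ fixs a)
      omega
    have h1 := main_ineq hψ hu M
    have h2 := zz (u := u) (M := M) hq hY
    have h3 := orbit_ineq hψ hu haD ha
    have h4 := q3_le hm hu
    have hr : 1 ≤ (KK u M).relIndex (fixs u) := Nat.one_le_iff_ne_zero.2 (rel_ne_zero _ _)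
    have hD : Fintype.card F ≤ Nat.card (Dh ψ u M) := by
      have := card_diff hu (Dh ψ u M) (smul_mem_Dh u M)
      omega
    have hP : Fintype.card F ≤ Nat.card (pu u).toAddSubgroup := by
      refine le_trans ?_ h4
      exact Nat.le_self_pow (by norm_num) _
    have hk' := hk
    unfold Small at hk'
    rw [← card_pu hu] at hk'
    have hq1 : 1 ≤ Fintype.card F := by omega
    zify [hq1] at h1 h2 h4 hr hf hk' hq
    have h3' : ((KK u M).relIndex (fixs u ⊓ fixs a) : ℤ) *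
        ((Nat.card (pu u).toAddSubgroup : ℤ) - Fintype.card F) ≤
        ((KK u M).relIndex (fixs u) : ℤ) * ((Nat.card (Dh ψ u M) : ℤ) - Fintype.card F) := by
      have := h3
      zify [hD, hP] at this
      exact this
    exact stepA_num hq h4 h1 h2 hk' (Int.natCast_nonneg _) hr hf h3'
  intro g h1 h2
  exact Subgroup.relIndex_eq_one.1 key ⟨h1, h2⟩

end StepA

end Cfsg.Agent.MinS
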